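import Cfsg.Agent.H8.Bs0
import Cfsg.Agent.H26.Core

/-! The hard configurations in dimension four over `F₃` and `F₅` (`H15.Bs.hard3p`, `H15.Bs.hard5`). -/

namespace H15.Bs
open Subgroup H18 H8.Bs
open scoped commutatorElement
universe u
set_option synthInstance.maxSize 1024
set_option maxRecDepth 10000

/-- vectors -/
abbrev V4 (p : ℕ) := ZMod p × ZMod p × ZMod p × ZMod p
/-- matrices as quadruples of columns -/
abbrev M4 (p : ℕ) := V4 p × V4 p × V4 p × V4 p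

variable {p : ℕ}

instance : DecidableEq (V4 p) := inferInstance
instance : DecidableEq (M4 p) := fun a b =>
  instDecidableEqProd (α := V4 p) (β := V4 p × V4 p × V4 p) a b

def ap (B : M4 p) (c : V4 p) : V4 p := c.1 • B.1 + c.2.1 • B.2.1 + c.2.2.1 • B.2.2.1 + c.2.2.2 • B.2.2.2
def mul (A B : M4 p) : M4 p := (ap A B.1, ap A B.2.1, ap A B.2.2.1, ap A B.2.2.2)
def one : M4 p := ((1, 0, 0, 0), (0, 1, 0, 0), (0, 0, 1, 0), (0, 0, 0, 1))
def X1 (v : V4 p) : V4 p := (v.2.2.1, v.2.2.2, v.1, v.2.1)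
def X2 (v : V4 p) : V4 p := (v.2.1, v.1, v.2.2.2, v.2.2.1)
def Z1 (v : V4 p) : V4 p := (v.1, v.2.1, -v.2.2.1, -v.2.2.2)
def Z2 (v : V4 p) : V4 p := (v.1, -v.2.1, v.2.2.1, -v.2.2.2)
def op (a : Fin 2) (X : V4 p → V4 p) (v : V4 p) : V4 p := if a = 0 then v else X v
def act (a b c d : Fin 2) (l : ZMod p) (v : V4 p) : V4 p := op a X1 (op b X2 (op c Z1 (op d Z2 (l • v))))
/-- `L` intertwines `h` with a Pauli matrix -/
def Ex [NeZero p] (h : V4 p → V4 p) (L : M4 p) : Prop := ∃ a b c d : Fin 2, ∃ l : ZMod p,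
  ap L (h (1, 0, 0, 0)) = act a b c d l L.1 ∧ ap L (h (0, 1, 0, 0)) = act a b c d l L.2.1 ∧
    ap L (h (0, 0, 1, 0)) = act a b c d l L.2.2.1 ∧ ap L (h (0, 0, 0, 1)) = act a b c d l L.2.2.2
instance [NeZero p] (h : V4 p → V4 p) (L : M4 p) : Decidable (Ex h L) := by unfold Ex; infer_instance
/-- pruning -/
def Pr [NeZero p] (S : List (M4 p)) (L : M4 p) : Prop := Ex X1 L → Ex X2 L → Ex Z1 L → Ex Z2 L → L = one ∨ L ∈ S
instance [NeZero p] (S : List (M4 p)) (L : M4 p) : Decidable (Pr S L) := by unfold Pr; infer_instance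
/-- the finite check -/
def Chk [NeZero p] (v u : V4 p) (g : V4 p → V4 p) (Bi : M4 p) (S : List (M4 p)) : Prop :=
  mul (v, u, g v, g u) Bi = one ∧ u ≠ 0 ∧ ∀ a b c d : Fin 2, ∀ l : ZMod p, act a b c d l u ≠ v ∧
    (act a b c d l v = v → a = 0 ∧ b = 0 ∧ c = 0 ∧ d = 0 ∧ l = 1) ∧
    Pr S (mul (v, u, act a b c d l v, act a b c d l u) Bi)
instance [NeZero p] (v u : V4 p) (g : V4 p → V4 p) (Bi : M4 p) (S : List (M4 p)) : Decidable (Chk v u g Bi S) := by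
  unfold Chk; infer_instance

theorem ap_mul (A B : M4 p) (c : V4 p) : ap (mul A B) c = ap A (ap B c) := by
  simp only [ap, mul, Prod.fst_add, Prod.snd_add, Prod.smul_fst, Prod.smul_snd, smul_eq_mul]
  module
theorem ap_one (c : V4 p) : ap one c = c := by simp [ap, one]

variable {G : Type*} [Group G] {f : V4 p → G}

/-- `g` acts on the image of `f` as `L` -/
def Rp (f : V4 p → G) (g : G) (L : V4 p → V4 p) : Prop := ∀ v, MulAut.conj g (f v) = f (L v)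

theorem Rp.mul {g h : G} {L L' : V4 p → V4 p} (a : Rp f g L) (b : Rp f h L') : Rp f (g * h) fun v => L (L' v) :=
  fun v => by rw [map_mul, MulAut.mul_apply, b, a]
theorem Rp.mul' {g h : G} {L L' : M4 p} (a : Rp f g (ap L)) (b : Rp f h (ap L')) : Rp f (g * h) (ap (Bs.mul L L')) :=
  fun v => by rw [ap_mul]; exact a.mul b v
theorem Rp.op {g : G} {L : V4 p → V4 p} (a : Rp f g L) (i : Fin 2) : Rp f (g ^ i.1) (op i L) := by
  fin_cases i
  · exact fun v => by simp [Bs.op]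
  · exact fun v => by simpa [Bs.op] using a v

theorem f_nsmul (hf : ∀ a b, f (a + b) = f a * f b) (n : ℕ) (a : V4 p) : f (n • a) = f a ^ n :=
  (MonoidHom.mk' (fun a : Multiplicative (V4 p) => f a.toAdd) fun _ _ => hf _ _).map_pow (.ofAdd a) n
theorem f_neg (hf : ∀ a b, f (a + b) = f a * f b) (a : V4 p) : f (-a) = (f a)⁻¹ :=
  (MonoidHom.mk' (fun a : Multiplicative (V4 p) => f a.toAdd) fun _ _ => hf _ _).map_inv (.ofAdd a)
theorem f_smul [NeZero p] (hf : ∀ a b, f (a + b) = f a * f b) (c : ZMod p) (a : V4 p) : f (c • a) = f a ^ c.val := by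
  rw [← f_nsmul hf, ← Nat.cast_smul_eq_nsmul (ZMod p), ZMod.natCast_zmod_val]
theorem ext4 [NeZero p] (hf : ∀ a b, f (a + b) = f a * f b) {g : G} {B B' : M4 p} (h1 : MulAut.conj g (f B.1) = f B'.1)
    (h2 : MulAut.conj g (f B.2.1) = f B'.2.1) (h3 : MulAut.conj g (f B.2.2.1) = f B'.2.2.1)
    (h4 : MulAut.conj g (f B.2.2.2) = f B'.2.2.2) (c : V4 p) : MulAut.conj g (f (ap B c)) = f (ap B' c) := by
  simp only [ap, hf, f_smul hf, map_mul, map_pow, h1, h2, h3, h4]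
theorem rp_of [NeZero p] (hf : ∀ a b, f (a + b) = f a * f b) {g : G} {L : V4 p → V4 p}
    (hL : ∀ v, L v = ap (L (1, 0, 0, 0), L (0, 1, 0, 0), L (0, 0, 1, 0), L (0, 0, 0, 1)) v)
    (h1 : MulAut.conj g (f (1, 0, 0, 0)) = f (L (1, 0, 0, 0))) (h2 : MulAut.conj g (f (0, 1, 0, 0)) = f (L (0, 1, 0, 0)))
    (h3 : MulAut.conj g (f (0, 0, 1, 0)) = f (L (0, 0, 1, 0)))
    (h4 : MulAut.conj g (f (0, 0, 0, 1)) = f (L (0, 0, 0, 1))) : Rp f g L := fun v => by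
  rw [hL, ← ext4 hf (B := one) h1 h2 h3 h4, ap_one]

theorem cc {g k : G} (h : Commute g k) (y : G) : MulAut.conj g (MulAut.conj k y) = MulAut.conj k (MulAut.conj g y) := by
  rw [← MulAut.mul_apply, ← map_mul, h, map_mul, MulAut.mul_apply]
theorem ci {g : G} (h : g * g = 1) (y : G) : MulAut.conj g (MulAut.conj g y) = y := by
  rw [← MulAut.mul_apply, ← map_mul, h, map_one, MulAut.one_apply]
theorem cV {V : Subgroup G} {g y : G} (hg : g ∈ N(V)) (hy : y ∈ V) : MulAut.conj g y ∈ V :=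
  (mem_normalizer_iff.1 hg y).1 hy
theorem ca {V : Subgroup G} {g k y : G} (hg : g ∈ N(V)) (hk : k ∈ N(V)) (h : ∀ v ∈ V, ⁅g, k⁆ * v * ⁅g, k⁆⁻¹ = v⁻¹)
    (hy : y ∈ V) : MulAut.conj k (MulAut.conj g y) = (MulAut.conj g (MulAut.conj k y))⁻¹ := by
  rw [eq_comm, inv_eq_iff_eq_inv, ← h _ (cV hk (cV hg hy)), commutatorElement_def]
  simp only [MulAut.conj_apply]; group

/-- the coordinates -/
structure St (p : ℕ) (V N B : Subgroup G) (x₁ x₂ b₁ b₂ : G) (f : V4 p → G) : Prop where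
  add : ∀ a b, f (a + b) = f a * f b
  inj : Function.Injective f
  mem : ∀ a, f a ∈ V ⊓ C(B)
  r1 : Rp f x₁ X1
  r2 : Rp f x₂ X2
  r3 : Rp f b₁ Z1
  r4 : Rp f b₂ Z2
  rN : ∀ n ∈ N, ∃ a b c d l, Rp f n (act a b c d l) ∧ (a = 0 ∧ b = 0 ∧ c = 0 ∧ d = 0 ∧ l = 1 → n ∈ B)

variable {V N M B T : Subgroup G} {e x₁ x₂ b₁ b₂ : G}

theorem setup [Finite G] [hp : Fact p.Prime] (h2 : (2 : ZMod p) ≠ 0) (h : HD p V N M B T e x₁ x₂ b₁ b₂)
    (hm : ∀ m ∈ M, m * e * m⁻¹ ∈ zpowers e) : ∃ f, St p V N B x₁ x₂ b₁ b₂ f := by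
  have cW : ∀ {g y : G}, g ∈ N → y ∈ V ⊓ C(B) → MulAut.conj g y ∈ V ⊓ C(B) := fun hg hy =>
    mem_inf.2 ⟨cV (h.NV hg) hy.1, mul_mem (mul_mem (h.NB hg) (mem_inf.1 hy).2) (inv_mem (h.NB hg))⟩
  have w0 : e ∈ V ⊓ C(B) := ⟨h.eV, h.eB⟩
  have w1 := cW h.m2 w0
  have w2 := cW h.m1 w0
  have w3 := cW h.m1 w1
  have pa : ∀ {x : G}, x ∈ V ⊓ C(B) → ∀ c d : ZMod p, x ^ (c + d).val = x ^ c.val * x ^ d.val := fun hx c d => by
    rw [ZMod.val_add, ← pow_eq_pow_mod _ (h.el.pow _ hx.1), pow_add]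
  have cm : ∀ {x y : G}, x ∈ V ⊓ C(B) → y ∈ V ⊓ C(B) → Commute x y := fun hx hy => h.el.abel hy.1 _ hx.1
  obtain ⟨f, hf, hW, f0, f1, f2, f3⟩ : ∃ f : V4 p → G, (∀ a b, f (a + b) = f a * f b) ∧ (∀ a, f a ∈ V ⊓ C(B)) ∧
      f (1, 0, 0, 0) = e ∧ f (0, 1, 0, 0) = MulAut.conj x₂ e ∧ f (0, 0, 1, 0) = MulAut.conj x₁ e ∧
      f (0, 0, 0, 1) = MulAut.conj x₁ (MulAut.conj x₂ e) := by
    refine ⟨fun a => e ^ a.1.val * MulAut.conj x₂ e ^ a.2.1.val * MulAut.conj x₁ e ^ a.2.2.1.val *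
      MulAut.conj x₁ (MulAut.conj x₂ e) ^ a.2.2.2.val, fun a b => ?_, fun a => mul_mem (mul_mem (mul_mem
        (pow_mem w0 _) (pow_mem w1 _)) (pow_mem w2 _)) (pow_mem w3 _), ?_⟩
    · simp only [Prod.fst_add, Prod.snd_add, pa w0, pa w1, pa w2, pa w3]
      rw [(cm (pow_mem w0 _) (pow_mem w1 _)).mul_mul_mul_comm,
        (cm (mul_mem (pow_mem w0 _) (pow_mem w1 _)) (pow_mem w2 _)).mul_mul_mul_comm,
        (cm (mul_mem (mul_mem (pow_mem w0 _) (pow_mem w1 _)) (pow_mem w2 _)) (pow_mem w3 _)).mul_mul_mul_comm]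
    · simp only [ZMod.val_one, ZMod.val_zero, pow_one, pow_zero, mul_one, one_mul, and_self]
  have g1 : f (0, -1, 0, 0) = (MulAut.conj x₂ e)⁻¹ := by rw [← f1, ← f_neg hf]; simp
  have g2 : f (0, 0, -1, 0) = (MulAut.conj x₁ e)⁻¹ := by rw [← f2, ← f_neg hf]; simp
  have g3 : f (0, 0, 0, -1) = (MulAut.conj x₁ (MulAut.conj x₂ e))⁻¹ := by rw [← f3, ← f_neg hf]; simp
  have k1 : MulAut.conj b₁ e = e := by rw [MulAut.conj_apply, h.f1, mul_inv_cancel_right]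
  have k2 : MulAut.conj b₂ e = e := by rw [MulAut.conj_apply, h.f2, mul_inv_cancel_right]
  have r1 : Rp f x₁ X1 := rp_of hf (fun v => by simp [ap, X1]) (by simp only [X1, f0, f2]) (by simp only [X1, f1, f3])
    (by simp only [X1, f0, f2, ci h.s1]) (by simp only [X1, f1, f3, ci h.s1])
  have r2 : Rp f x₂ X2 := rp_of hf (fun v => by simp [ap, X2]) (by simp only [X2, f0, f1])
    (by simp only [X2, f0, f1, ci h.s2]) (by simp only [X2, f2, f3, cc h.c12.symm])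
    (by simp only [X2, f2, f3]; rw [cc h.c12.symm, ci h.s2])
  have r3 : Rp f b₁ Z1 := rp_of hf (fun v => by simp [ap, Z1]) (by simp only [Z1, neg_zero, f0, k1])
    (by simp only [Z1, neg_zero, f1]; rw [cc h.c23.symm, k1])
    (by simp only [Z1, neg_zero, f2, g2]; rw [ca (h.NV h.m1) (h.NV h.m3) h.a1 h.eV, k1])
    (by simp only [Z1, neg_zero, f3, g3]; rw [ca (h.NV h.m1) (h.NV h.m3) h.a1 w1.1, cc h.c23.symm, k1])
  have r4 : Rp f b₂ Z2 := rp_of hf (fun v => by simp [ap, Z2]) (by simp only [Z2, neg_zero, f0, k2])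
    (by simp only [Z2, neg_zero, f1, g1]; rw [ca (h.NV h.m2) (h.NV h.m4) h.a2 h.eV, k2])
    (by simp only [Z2, neg_zero, f2]; rw [cc h.c14.symm, k2])
    (by simp only [Z2, neg_zero, f3, g3]; rw [cc h.c14.symm, ca (h.NV h.m2) (h.NV h.m4) h.a2 h.eV, k2, map_inv])
  have i1 : ∀ {g L a}, Rp f g L → f a = 1 → f (L a) = 1 := fun r ha => by rw [← r, ha, map_one]
  have i0 : ∀ {a}, f a = 1 → a.1 = 0 := fun {a} ha => by
    have : f ((2 * 2 * a.1) • (1, 0, 0, 0)) = 1 := by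
      rw [show (2 * 2 * a.1) • ((1, 0, 0, 0) : V4 p) = a + Z1 a + (Z2 a + Z1 (Z2 a)) by
        ext <;> simp [Z1, Z2]; ring, hf, hf, hf, ha, i1 r3 ha, i1 r4 ha, i1 r3 (i1 r4 ha)]
      simp
    rw [f_smul hf, f0, ← orderOf_dvd_iff_pow_eq_one, orderOf_eq_prime (h.el.pow _ h.eV) h.e1] at this
    exact (mul_eq_zero.1 ((ZMod.val_eq_zero _).1 (Nat.eq_zero_of_dvd_of_lt this (ZMod.val_lt _)))).resolve_left
      (mul_ne_zero h2 h2)
  refine ⟨f, hf, fun a b e => sub_eq_zero.1 ?_, hW, r1, r2, r3, r4, fun n hn => ?_⟩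
  · have ha : f (a - b) = 1 := by rw [sub_eq_add_neg, hf, f_neg hf, e, mul_inv_cancel]
    exact Prod.ext (i0 ha) (Prod.ext (i0 (i1 r2 ha)) (Prod.ext (i0 (i1 r1 ha)) (i0 (i1 r2 (i1 r1 ha)))))
  obtain ⟨a, b, c, d, m, hM, rfl⟩ := h.gen n hn
  obtain ⟨k, hk⟩ := (mem_powers_iff_mem_zpowers).2 (hm m hM)
  have q0 : MulAut.conj m (f (1, 0, 0, 0)) = f ((k : ZMod p) • (1, 0, 0, 0)) := by
    rw [Nat.cast_smul_eq_nsmul, f_nsmul hf, f0]; exact hk.symm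
  obtain ⟨c1, c2, -⟩ := h.cM m hM
  have q1 : MulAut.conj m (f (0, 1, 0, 0)) = f ((k : ZMod p) • (0, 1, 0, 0)) := by
    rw [f1, cc c2, ← f0, q0, r2]; simp [X2]
  have rm : Rp f m fun v => (k : ZMod p) • v := rp_of hf (fun v => by ext <;> simp [ap, mul_comm]) q0 q1
    (by rw [f2, cc c1, ← f0, q0, r1]; simp [X1]) (by rw [f3, cc c1, ← f1, q1, r1]; simp [X1])
  refine ⟨a, b, c, d, k, ?_, ?_⟩
  · simp only [mul_assoc]
    exact (r1.op a).mul ((r2.op b).mul ((r3.op c).mul ((r4.op d).mul rm)))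
  · rintro ⟨rfl, rfl, rfl, rfl, e⟩
    rw [e, one_smul, f0] at q0
    simpa using h.reg m hM q0

theorem step [NeZero p] (h : HD p V N M B T e x₁ x₂ b₁ b₂) (s : St p V N B x₁ x₂ b₁ b₂ f) {v u : V4 p} {g : G}
    {X : V4 p → V4 p} (hg : g ∈ N) (r : Rp f g X) {Bi : M4 p} {S : List (M4 p)} (c : Chk v u X Bi S) :
    Out V N B T ∨ ∃ t ∈ T, ∃ L ∈ S, Rp f t (ap L) := by
  refine or_iff_not_imp_right.2 fun H => ?_
  have rg : Rg N B (f v) := fun n hn e =>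
    let ⟨a, b, c', d, l, r, k⟩ := s.rN n hn
    k ((c.2.2 a b c' d l).2.1 (s.inj ((r v).symm.trans e)))
  refine ⟨_, s.mem v, _, s.mem u, _, s.mem v, rg, rg, fun e => c.2.1 (s.inj (e.trans ?_)), fun n hn e => ?_,
    fun t ht e1 e2 => ⟨e1, fun n hn => ?_⟩⟩
  · rw [← zero_smul ℕ v, f_nsmul s.add, pow_zero]
  · obtain ⟨a, b, c', d, l, r, -⟩ := s.rN n hn
    exact (c.2.2 a b c' d l).1 (s.inj ((r u).symm.trans e))
  have k : ∀ {y Y}, y ∈ N → Rp f y Y → ∃ a b c d l, ∀ z z', MulAut.conj t (f z) = f z' →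
      MulAut.conj t (f (Y z)) = f (act a b c d l z') := fun {y Y} hy r => by
    obtain ⟨a, b, c, d, l, r', -⟩ := s.rN _ (cV (h.TN ht) hy)
    refine ⟨a, b, c, d, l, fun z z' e => ?_⟩
    rw [← r, ← r', ← e]
    simp only [MulAut.conj_apply]; group
  obtain ⟨a, b, c', d, l, k1⟩ := k hg r
  have rt : Rp f t (ap (mul (v, u, act a b c' d l v, act a b c' d l u) Bi)) := fun z => by
    rw [ap_mul, ← ext4 s.add (B := (v, u, X v, X u)) e1 e2 (k1 _ _ e1) (k1 _ _ e2), ← ap_mul, c.1, ap_one]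
  generalize hL : mul (v, u, act a b c' d l v, act a b c' d l u) Bi = L at rt
  have k2 : ∀ {y Y}, y ∈ N → Rp f y Y → Ex Y L := fun hy r =>
    let ⟨a, b, c, d, l, k⟩ := k hy r
    ⟨a, b, c, d, l, s.inj ((rt _).symm.trans (k _ _ ((rt _).trans (by simp [ap])))),
      s.inj ((rt _).symm.trans (k _ _ ((rt _).trans (by simp [ap])))),
      s.inj ((rt _).symm.trans (k _ _ ((rt _).trans (by simp [ap])))),
      s.inj ((rt _).symm.trans (k _ _ ((rt _).trans (by simp [ap]))))⟩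
  obtain rfl | hS := (hL ▸ (c.2.2 a b c' d l).2.2 : Pr S L) (k2 h.m1 s.r1) (k2 h.m2 s.r2) (k2 h.m3 s.r3) (k2 h.m4 s.r4)
  · obtain ⟨a, b, c', d, l, r, -⟩ := s.rN n hn
    have := rt (act a b c' d l v)
    rwa [ap_one, ← r] at this
  · exact absurd ⟨t, ht, L, hS, rt⟩ H

theorem c5 : Chk (p := 5) (0, 1, 1, 1) (1, 0, 1, 3) X1 ((3, 1, 4, 1), (1, 1, 1, 3), (4, 1, 3, 1), (1, 3, 1, 1)) [] := by
  decide +kernel

theorem hard5 : Hard12.{u} 5 := fun _ _ _ _ _ _ _ _ _ _ _ _ _ h hm => by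
  obtain ⟨f, s⟩ := setup (hp := ⟨Nat.prime_five⟩) (by decide) h hm
  exact (step h s h.m1 s.r1 c5).resolve_right fun ⟨_, _, _, hL, _⟩ => nomatch hL

def S1 : List (M4 3) := [((1, 0, 0, 0), (0, 0, 1, 0), (0, 1, 0, 0), (0, 0, 0, 1)),
  ((2, 0, 0, 0), (0, 0, 1, 0), (0, 1, 0, 0), (0, 0, 0, 1)), ((2, 0, 0, 0), (0, 1, 0, 0), (0, 0, 1, 0), (0, 0, 0, 1))]
def S2 : List (M4 3) := [((2, 2, 2, 2), (2, 2, 1, 1), (2, 1, 2, 1), (2, 1, 1, 2)),
  ((2, 2, 2, 2), (2, 1, 1, 2), (2, 1, 2, 1), (2, 2, 1, 1)), ((1, 0, 0, 0), (0, 0, 0, 1), (0, 0, 1, 0), (0, 1, 0, 0))]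
def S3 : List (M4 3) := [((1, 0, 0, 0), (0, 1, 0, 0), (0, 0, 0, 1), (0, 0, 1, 0)),
  ((2, 1, 1, 1), (1, 2, 1, 1), (1, 1, 2, 1), (1, 1, 1, 2)), ((2, 1, 1, 1), (1, 2, 1, 1), (1, 1, 1, 2), (1, 1, 2, 1))]
theorem c31 : Chk (p := 3) (0, 1, 1, 1) (0, 0, 0, 1) X1 ((0, 2, 1, 2), (0, 0, 0, 1), (1, 2, 0, 2), (0, 1, 0, 0)) S1 := by
  decide +kernel
theorem c32 : Chk (p := 3) (0, 1, 1, 1) (1, 0, 1, 0) X2 ((2, 1, 0, 1), (0, 1, 2, 1), (1, 0, 0, 2), (0, 2, 1, 0)) S2 := by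
  decide +kernel
theorem c33 : Chk (p := 3) (0, 1, 1, 1) (1, 1, 2, 2) Z2 ((2, 2, 2, 2), (1, 1, 2, 2), (2, 0, 2, 0), (1, 2, 2, 1)) S3 := by
  decide +kernel
/-- the square has order three -/
def Bad (W : M4 3) : Prop := mul W W ≠ one ∧ mul (mul W W) (mul (mul W W) (mul W W)) = one
instance (W : M4 3) : Decidable (Bad W) := by unfold Bad; infer_instance
/-- one of four words is bad -/
def Bd (a b c : M4 3) : Prop := Bad (mul a b) ∨ Bad (mul a c) ∨ Bad (mul b c) ∨ Bad (mul a (mul b c))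
instance (a b c : M4 3) : Decidable (Bd a b c) := by unfold Bd; infer_instance
theorem c35 : (S1.all fun a => S2.all fun b => S3.all fun c => decide (Bd a b c)) = true := by decide +kernel
theorem c34 (a : M4 3) (ha : a ∈ S1) (b : M4 3) (hb : b ∈ S2) (c : M4 3) (hc : c ∈ S3) : Bd a b c :=
  of_decide_eq_true (List.all_eq_true.1 (List.all_eq_true.1 (List.all_eq_true.1 c35 a ha) b hb) c hc)

theorem bad [Finite G] {f : V4 3 → G} (hi : Function.Injective f) (h3 : ¬ 3 ∣ Nat.card T) {t : G} (ht : t ∈ T)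
    {W : M4 3} (r : Rp f t (ap W)) : ¬ Bad W := fun ⟨h1, h2⟩ => by
  have r2 := r.mul' r
  have r6 := r2.mul' (r2.mul' r2)
  rw [h2] at r6
  have k : t * t ∈ centralizer (Set.range f) := H26.mem_of_pow_mem_coprime
    ((Nat.prime_three.coprime_iff_not_dvd).2 h3) (by
      rintro _ ⟨a, rfl⟩
      have := r6 a
      rw [ap_one, MulAut.conj_apply, mul_inv_eq_iff_eq_mul] at this
      rw [pow_three, this])
    (by rw [show (t * t) ^ Nat.card T = 1 from congrArg Subtype.val (pow_card_eq_one' (x := (⟨_, mul_mem ht ht⟩ : T)))]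
        exact one_mem _)
  have k2 : ∀ a, ap (mul W W) a = a := fun a => hi (by
    rw [← r2, MulAut.conj_apply, ← k _ ⟨a, rfl⟩, mul_inv_cancel_right])
  refine h1 (Prod.ext ?_ (Prod.ext ?_ (Prod.ext ?_ ?_)))
  · simpa [ap, one] using k2 (1, 0, 0, 0)
  · simpa [ap, one] using k2 (0, 1, 0, 0)
  · simpa [ap, one] using k2 (0, 0, 1, 0)
  · simpa [ap, one] using k2 (0, 0, 0, 1)

theorem hard3p : Hard12.{u} 3 := fun _ _ _ _ _ _ _ _ _ _ _ _ _ h hm => by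
  obtain ⟨f, s⟩ := setup (hp := ⟨Nat.prime_three⟩) (by decide) h hm
  by_contra H
  obtain ⟨t1, m1, a, ha, r1⟩ := (step h s h.m1 s.r1 c31).resolve_left H
  obtain ⟨t2, m2, b, hb, r2⟩ := (step h s h.m2 s.r2 c32).resolve_left H
  obtain ⟨t3, m3, c, hc, r3⟩ := (step h s h.m4 s.r4 c33).resolve_left H
  rcases c34 a ha b hb c hc with k | k | k | k
  · exact bad s.inj h.cop (mul_mem m1 m2) (r1.mul' r2) k
  · exact bad s.inj h.cop (mul_mem m1 m3) (r1.mul' r3) k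
  · exact bad s.inj h.cop (mul_mem m2 m3) (r2.mul' r3) k
  · exact bad s.inj h.cop (mul_mem m1 (mul_mem m2 m3)) (r1.mul' (r2.mul' r3)) k

end H15.Bs
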