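import Cfsg.Agent.H15.Cnt4
import Cfsg.Agent.L.KT

/-! Subgroups of shape `2^9.X` (`two_ext`), counting the centre of a group (`Cn.count_cz`). -/

namespace H15
open H14 L

theorem Cn.count_cz {Γ Ω : Type*} [Group Γ] [MulAction Γ Ω] [Finite Γ] {n : ℕ} {Ls : List Net} {M : PM Γ Ω n Ls}
    {F : ℕ → ℕ → ℕ} [PtF n Ls F] {sp r : ℕ} {ws : List Word} {N : ℕ} {ts : List ℕ} {l : List (ℕ × ℕ)}
    {Ts : List (ℕ × List ℕ)} {c : ℕ} {bs : List ℕ} (hN : Nat.card (sub M.gen ws) = N) (hs : spOk n sp r = true)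
    (h : chk F sp r ws ts l Ts N (fun f => (ws.zip ts).all fun p => cm sp r p.2 bs f) c = true) :
    Nat.card (sub M.gen ws ⊓ Subgroup.centralizer (sub M.gen ws : Set Γ) : Subgroup Γ) ≤ c :=
  count_le hs hN le_rfl (P := fun g => g ∈ Subgroup.centralizer (sub M.gen ws : Set Γ)) (fun _ _ h' _ a =>
    List.all_eq_true.2 fun p hp => cm_of hs h' (fn_of_chk hs (List.all_eq_true.1 (Bool.and_eq_true_iff.1 h).1 p hp))
      (a _ (ev_mem_sub _ (List.of_mem_zip hp).1)).symm bs) h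

universe u in
theorem two_ext {G : Type u} {X : Type*} [Group G] [Finite G] [Group X] [IsSimpleGroup X] {y : ℕ → G}
    {V W ws cs : List Word} {rels vs : List (Word × Word)} {C : Subgroup G} (hV : sub y V ≤ C) (hW : sub y W ≤ C)
    (hn : sub y W ≤ Subgroup.normalizer (sub y V : Set G)) (hP : Pres.{u} X rels ws) (h1 : Rels y (qR W V rels cs))
    (h2 : (decide (∀ p ∈ sR W V ws (V ++ W) vs, p.1 = p.2) &&
      band (Nat.beq (lenL cs) (lenL rels)) (Nat.beq (lenL vs) (lenL (V ++ W)))) = true)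
    {a : G} (ha : a ∈ sub y W) (h3 : a ^ 4 ≠ 1) (h4 : ∀ x ∈ sub y V, x ^ 4 = 1) (h5 : 512 ≤ Nat.card (sub y V))
    (h6 : Nat.card C < 2 * (Nat.card X * 512)) : Nat.card (sub y V) = 2 ^ 9 ∧
      ∃ _ : ((sub y V).subgroupOf C).Normal, Nonempty (C ⧸ (sub y V).subgroupOf C ≃* X) := by
  obtain ⟨h2, h7⟩ := Bool.and_eq_true_iff.1 h2
  have hK : sub y V ⊔ sub y W ≤ C := sup_le hV hW
  have hN := (Subgroup.normal_subgroupOf_iff_le_normalizer le_sup_left).2 (sup_le Subgroup.le_normalizer hn)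
  obtain ⟨φ, hφ⟩ := quot_surj hP le_sup_left le_sup_right le_rfl
    (sup_le ((sub_le _).2 fun w hw => ev_mem_sub _ (List.mem_append_left _ hw))
      ((sub_le _).2 fun w hw => ev_mem_sub _ (List.mem_append_right _ hw))) h1
    (fun p hp => by rw [of_decide_eq_true h2 p hp]) h7
  obtain ⟨b, hb⟩ := hφ (QuotientGroup.mk ⟨a, Subgroup.mem_sup_right ha⟩)
  let e := MulEquiv.ofBijective φ ⟨inj_of_simple φ (g := b) fun h =>
    h3 (h4 a ((QuotientGroup.eq_one_iff (N := (sub y V).subgroupOf (sub y V ⊔ sub y W)) _).1 (hb.symm.trans h))), hφ⟩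
  have h8 := Subgroup.card_eq_card_quotient_mul_card_subgroup ((sub y V).subgroupOf (sub y V ⊔ sub y W))
  rw [Nat.card_congr (Subgroup.subgroupOfEquivOfLe le_sup_left).toEquiv, ← Nat.card_congr e.toEquiv] at h8
  have := Fact.mk Nat.prime_two
  obtain ⟨m, hm⟩ := IsPGroup.exists_card_eq (p := 2) (G := sub y V) fun g => ⟨2, Subtype.ext (h4 _ g.2)⟩
  have h9 : Nat.card (sub y V) < 2 ^ 10 := Nat.lt_of_mul_lt_mul_left (a := Nat.card X)
    ((h8.ge.trans (Subgroup.card_le_of_le hK)).trans_lt (h6.trans_eq (by ring)))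
  rw [hm] at h5 h9
  obtain rfl : m = 9 := le_antisymm (Nat.le_of_lt_succ ((Nat.pow_lt_pow_iff_right one_lt_two).1 h9))
    ((Nat.pow_le_pow_iff_right one_lt_two).1 h5)
  obtain rfl := eq_of_card_lt hK (by rwa [h8, hm])
  exact ⟨hm, hN, ⟨e.symm⟩⟩

universe u in
theorem presA9' : Pres.{u} (alternatingGroup (Fin 9)) ((carm 7).map fun w => (w.reverse, []))
    ((lts 7).map List.reverse) := fun _ _ _ h =>
  let ⟨_, hx⟩ := homA9; let ⟨φ, a, _⟩ := hx _ _ (relL_of_rels h); ⟨φ, a⟩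

theorem sub_eq_of_rels {G : Type*} [Group G] {y : ℕ → G} {l : List (Word × Word)} (h : Rels y l) :
    sub y (l.map Prod.fst) = sub y (l.map Prod.snd) :=
  le_antisymm ((sub_le _).2 fun _ hw => let ⟨p, hp, e⟩ := List.mem_map.1 hw
      e ▸ h p hp ▸ ev_mem_sub _ (List.mem_map_of_mem hp))
    ((sub_le _).2 fun _ hw => let ⟨p, hp, e⟩ := List.mem_map.1 hw
      e ▸ (h p hp).symm ▸ ev_mem_sub _ (List.mem_map_of_mem hp))

theorem sub_congr {G : Type*} [Group G] {g g' : ℕ → G} {k : ℕ} (h : ∀ l < k, g l = g' l) {ws : List Word}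
    (hw : ws.all (fun w => w.all fun a => Nat.blt a (2 * k)) = true) : sub g ws = sub g' ws :=
  le_antisymm ((sub_le _).2 fun w h' => ev14_congr h (List.all_eq_true.1 hw w h') ▸ ev_mem_sub _ h')
    ((sub_le _).2 fun w h' => (ev14_congr h (List.all_eq_true.1 hw w h')).symm ▸ ev_mem_sub _ h')

end H15
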