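import Cfsg.Agent.H15.Cnt5
import Cfsg.Agent.H15.Emb

/-! Centralisers of elements of a normal elementary abelian subgroup of the point stabiliser in a closed double coset
enumeration (`Cl.cent_le'`, `Cl.fixQ`). -/

namespace H15
open H14 L

theorem mem_sublists {Γ : Type*} [Group Γ] {f : ℕ → Γ} : ∀ V : List Word,
    (∀ a ∈ sub f V, ∀ b ∈ sub f V, a * b = b * a) → (∀ a ∈ V, H14.ev f a * H14.ev f a = 1) →
    ∀ g ∈ sub f V, ∃ s : List Word, s.Sublist V ∧ g = H14.ev f s.flatten
  | [], _, _, g, hg => ⟨[], List.Sublist.slnil, by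
      have : sub f [] ≤ ⊥ := (sub_le _).2 fa_nil
      exact this hg⟩
  | a :: t, h1, h2, g, hg => by
    have hl : sub f t ≤ sub f (a :: t) := (sub_le _).2 fun w hw => ev_mem_sub _ (List.mem_cons_of_mem _ hw)
    have ha : H14.ev f a ∈ sub f (a :: t) := ev_mem_sub _ List.mem_cons_self
    have e := h2 a List.mem_cons_self
    have ih := mem_sublists t (fun x hx y hy => h1 x (hl hx) y (hl hy)) fun b hb => h2 b (List.mem_cons_of_mem _ hb)
    have key : ∀ g ∈ sub f (a :: t), g ∈ sub f t ∨ g * H14.ev f a ∈ sub f t := fun g hg => by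
      unfold sub at hg
      induction hg using Subgroup.closure_induction with
      | mem g hg =>
        obtain ⟨w, hw, rfl⟩ := hg
        rcases List.mem_cons.1 hw with rfl | hw
        · exact Or.inr (e ▸ one_mem _)
        · exact Or.inl (ev_mem_sub _ hw)
      | one => exact Or.inl (one_mem _)
      | mul x y hx hy ix iy =>
        have c := h1 _ ha y hy
        rcases ix with ix | ix <;> rcases iy with iy | iy
        · exact Or.inl (mul_mem ix iy)
        · exact Or.inr (mul_assoc x y _ ▸ mul_mem ix iy)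
        · exact Or.inr (by have := mul_mem ix iy; rwa [mul_assoc, c, ← mul_assoc] at this)
        · exact Or.inl (by have := mul_mem ix iy; rwa [mul_assoc, ← mul_assoc _ y, c, mul_assoc y, e, mul_one] at this)
      | inv x hx ix =>
        rcases ix with ix | ix
        · exact Or.inl (inv_mem ix)
        · refine Or.inr ?_
          have := inv_mem ix
          rwa [mul_inv_rev, inv_eq_of_mul_eq_one_right e, h1 _ ha _ (inv_mem hx)] at this
    rcases key g hg with h | h
    · obtain ⟨s, hs, rfl⟩ := ih g h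
      exact ⟨s, hs.cons a, rfl⟩
    · obtain ⟨s, hs, e'⟩ := ih _ h
      exact ⟨a :: s, hs.cons_cons a, by rw [List.flatten_cons, H14.ev_append, ← e', mul_assoc, e, mul_one]⟩

/-- all sublists -/
noncomputable def sbl {α : Type} (l : List α) : List (List α) :=
  @List.rec α (fun _ => List (List α)) [[]] (fun a _ ih => List.append ih (List.map (List.cons a) ih)) l

theorem mem_sbl {α : Type} {s l : List α} (h : s.Sublist l) : s ∈ sbl l := by
  induction h with
  | slnil => exact List.mem_cons_self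
  | cons a _ ih => exact List.mem_append_left _ ih
  | cons_cons a _ ih => exact List.mem_append_right _ (List.mem_map_of_mem ih)

theorem conj_flat {Γ G : Type*} [Group Γ] [Group G] {f : ℕ → Γ} {θ : Γ →* G} {ω : G} : ∀ P : List (Word × Word),
    (∀ p ∈ P, θ (H14.ev f p.1) * ω = ω * θ (H14.ev f p.2)) →
    θ (H14.ev f (P.map Prod.fst).flatten) * ω = ω * θ (H14.ev f (P.map Prod.snd).flatten)
  | [], _ => by simp
  | p :: P, h => by
    rw [List.map_cons, List.map_cons, List.flatten_cons, List.flatten_cons, H14.ev_append, H14.ev_append, map_mul,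
      map_mul, mul_assoc, h p List.mem_cons_self, ← mul_assoc, conj_flat P fun q hq => h q (List.mem_cons_of_mem _ hq),
      mul_assoc]

/-- commutes with all words at the point `0` -/
noncomputable def cmP (F : ℕ → ℕ → ℕ) (V : List Word) (w : Word) : Bool :=
  V.all fun v => Nat.beq (apW F (v ++ w) 0) (apW F (w ++ v) 0)
/-- leaves one of the sets -/
noncomputable def outP (F : ℕ → ℕ → ℕ) (X : List (ℕ × ℕ)) (w : Word) : Bool := X.any fun x => !tb x.2 (apW F w x.1)

namespace DC.Cl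
variable {Γ G Ω : Type*} [Group Γ] [Group G] [MulAction Γ Ω] {n : ℕ} {Ls : List Net} {M : PM Γ Ω n Ls}
  {st : ℕ → ℕ → ℕ} {P0 A B K0 : ℕ} {E : Ev Γ st P0} {θ : Γ →* G} {T : G} {row : ℕ → ℕ}
  {F : ℕ → ℕ → ℕ} [PtF n Ls F] {nF p0 O N : ℕ} {cs : List CI}
  (h : Cl M A B K0 E θ T row F nF p0 O N cs)

/-- the orbit of the centraliser in a double coset -/
def OrbC (E : Ev Γ st P0) (θ : Γ →* G) (T : G) (row : ℕ → ℕ) (t : Γ) (c : CI) (f : ℕ) : Prop :=
  {x | x ∈ Ob θ (om E θ T row c.i) ∧ ∃ g ∈ Subgroup.centralizer {θ t}, g • om E θ T row 0 = x}.ncard ≤ f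

include h

theorem gel_eq {i j : ℕ} {w : Word} (hc : (Nat.beq (fi (row (i + 1))) j && (Nat.blt j (i + 1) &&
    eqW st P0 K0 (rH st (fh (row (i + 1))) P0) w)) = true) :
    gel E θ T row (i + 1) = T * θ (H14.ev M.gen w) * gel E θ T row j := by
  simp only [Bool.and_eq_true, Nat.beq_eq, Nat.blt_eq] at hc
  rw [gel, hc.1, if_pos hc.2.1, eqW_spec h.hE (gd_rH _ E.one) hc.2.2]

theorem out_of (hi : θ.range.index = 1 + (cs.map CI.m).sum) {c : CI} (hc : c ∈ cs) {X : List (ℕ × ℕ)}
    (hX : X.all (fun x => Nat.blt x.1 n && (tb x.2 x.1 && invChk Ls c.c.gens x.2)) = true) {w : Word}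
    (hw : outP F X w = true) : (gel E θ T row c.i)⁻¹ * θ (H14.ev M.gen w) * gel E θ T row c.i ∉ θ.range := fun hm => by
  obtain ⟨x, hx, h1⟩ := List.any_eq_true.1 hw
  have h2 := List.all_eq_true.1 hX x hx
  simp only [Bool.and_eq_true, Nat.blt_eq] at h2
  have h3 : H14.ev M.gen w ∈ sub M.gen c.c.gens := by
    rw [(h.stab_eq hi hc).1]
    exact (QuotientGroup.eq.2 (by rwa [mul_assoc] at hm)).symm
  have := (M.inv_sound h2.2.2 h3 (M.dec x.1)).2 (by rw [PM.mem_S, M.enc_dec _ h2.1, ← tb_eq, h2.2.1])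
  rw [PM.mem_S, enc_ev_dec (F := F) M w h2.1, ← tb_eq] at this
  rw [this] at h1; exact absurd h1 (by decide)

theorem fixQ (hθ : Function.Injective θ) (hi : θ.range.index = 1 + (cs.map CI.m).sum) {c : CI} (hc : c ∈ cs) {t : Γ}
    {Q : Subgroup Γ} [hQ : Q.Normal] (ht : t ∈ Q) (h1 : t ≠ 1) (hab : ∀ a ∈ Q, ∀ b ∈ Q, a * b = b * a)
    (hsq : ∀ a ∈ Q, a * a = 1) {P : List (Word × Word)} {R V : List Word} (hV : sub M.gen V ≤ Q)
    (hPR : Q = sub M.gen (P.map Prod.fst ++ R))
    (hP : ∀ p ∈ P, θ (H14.ev M.gen p.1) * gel E θ T row c.i = gel E θ T row c.i * θ (H14.ev M.gen p.2))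
    (hR : ∀ s ∈ sbl R, s = [] ∨
      (gel E θ T row c.i)⁻¹ * θ (H14.ev M.gen s.flatten) * gel E θ T row c.i ∉ θ.range)
    {k a b f : ℕ} (hb : Nat.card (Subgroup.centralizer {t}) ≤ b)
    (hk : (Nat.blt 0 n && (Nat.ble ((sbl P).filter fun s => !s.isEmpty && cmP F V (s.map Prod.snd).flatten).length a &&
      ((Nat.blt 0 c.m && Nat.beq (c.m * k) N) && Nat.blt (b * a) (k * (f + 1))))) = true) :
    OrbC E θ T row t c f := by
  have := h.fin
  obtain ⟨h0, hk⟩ := Bool.and_eq_true_iff.1 hk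
  obtain ⟨ha, hk⟩ := Bool.and_eq_true_iff.1 hk
  obtain ⟨hk, hf⟩ := Bool.and_eq_true_iff.1 hk
  rw [Nat.ble_eq] at ha
  have hk := h.card_K hi hc hk
  have e := (h.stab_eq hi hc).1
  set ω := gel E θ T row c.i with hω
  set S := {x | x ∈ Ob θ (om E θ T row c.i) ∧ ∃ g ∈ Subgroup.centralizer {θ t}, g • om E θ T row 0 = x}
  let U := {g | (g ≠ 1 ∧ g ∈ Q ∧ ω⁻¹ * θ g * ω ∈ Q.map θ) ∧ IsConj t g}
  have h2 : {g : Γ | θ g⁻¹ • om E θ T row c.i ∈ S}.ncard = k * S.ncard := by
    let := MulAction.compHom (G ⧸ θ.range) θ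
    rw [← hk, e]
    exact ncard_pre (Γ := Γ) (Ω := G ⧸ θ.range) (x := om E θ T row c.i) (S := S) fun y hy => hy.1
  have h3 : {g : Γ | g⁻¹ * t * g⁻¹⁻¹ ∈ U}.ncard = Nat.card (Subgroup.centralizer {t}) * U.ncard := by
    let := MulAction.compHom Γ (MulAut.conj (G := Γ))
    rw [show Subgroup.centralizer {t} = MulAction.stabilizer Γ t from Subgroup.ext fun g =>
      Subgroup.mem_centralizer_singleton_iff.trans mul_inv_eq_iff_eq_mul.symm]
    exact ncard_pre (Γ := Γ) (Ω := Γ) (x := t) (S := U) fun y hy => isConj_iff.1 hy.2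
  have h4 := Set.ncard_le_ncard_of_injOn (s := {g : Γ | θ g⁻¹ • om E θ T row c.i ∈ S})
    (t := {g : Γ | g⁻¹ * t * g⁻¹⁻¹ ∈ U}) Inv.inv (fun g hg => ⟨⟨fun e => h1 (by simpa using e),
      hQ.conj_mem _ ht _, by
        obtain ⟨-, x, hx, h5⟩ := hg
        obtain ⟨y, hy⟩ : x⁻¹ * (θ g⁻¹ * ω) ∈ θ.range := by
          have := QuotientGroup.eq.1 h5
          simpa [gel] using this
        refine ⟨y⁻¹ * t * y, by simpa using hQ.conj_mem _ ht y⁻¹, ?_⟩
        have h6 := Subgroup.mem_centralizer_singleton_iff.1 hx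
        simp only [map_mul, map_inv, hy, inv_inv, mul_inv_rev, mul_assoc]
        rw [← mul_assoc x, h6, mul_assoc, mul_inv_cancel_left]⟩, isConj_iff.2 ⟨_, rfl⟩⟩) inv_injective.injOn
  have h5 : U.ncard ≤ a := by
    classical
    refine le_trans (Set.ncard_le_ncard (t := (((sbl P).filter fun s => !s.isEmpty &&
      cmP F V (s.map Prod.snd).flatten).map fun s => H14.ev M.gen (s.map Prod.fst).flatten).toFinset) ?_) ?_
    · rintro g ⟨⟨a1, a2, a3⟩, -⟩
      obtain ⟨s, hs, rfl⟩ := mem_sublists _ (hPR ▸ hab) (fun w hw => hsq _ (hPR ▸ ev_mem_sub _ hw)) g (hPR ▸ a2)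
      obtain ⟨s1, s2, rfl, b1, b2⟩ := List.sublist_append_iff.1 hs
      obtain ⟨p, hp, rfl⟩ := List.sublist_map_iff.1 b1
      have b3 := conj_flat p fun q hq => hP q (hp.subset hq)
      rw [List.flatten_append, H14.ev_append] at a1 a3 ⊢
      rw [map_mul, mul_assoc, mul_assoc, b3, ← mul_assoc, ← mul_assoc] at a3
      obtain rfl := (hR s2 (mem_sbl b2)).resolve_right fun b4 => b4
        ((mul_mem_cancel_right (MonoidHom.mem_range.2 ⟨_, rfl⟩)).1 (Subgroup.map_le_range _ _ a3))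
      obtain ⟨y, hy, b5⟩ := a3
      simp only [List.flatten_nil, H14.ev_nil, map_one, mul_one, inv_mul_cancel, one_mul] at a1 b5 ⊢
      obtain rfl := hθ b5
      refine List.mem_toFinset.2 (List.mem_map.2 ⟨p, List.mem_filter.2 ⟨mem_sbl hp, ?_⟩, rfl⟩)
      rw [Bool.and_eq_true]
      refine ⟨by cases p; exacts [absurd rfl a1, rfl], List.all_eq_true.2 fun v hv => by_contra fun b6 =>
        ne_of_pt M F (Nat.blt_eq.mp h0) (Bool.eq_false_iff.2 b6) ?_⟩
      rw [H14.ev_append, H14.ev_append]; exact hab _ hy _ (hV (ev_mem_sub _ hv))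
    · rw [Set.ncard_coe_finset]
      exact (List.toFinset_card_le _).trans (by rwa [List.length_map])
  rw [h2, h3] at h4
  exact Nat.le_of_lt_succ (Nat.lt_of_mul_lt_mul_left ((h4.trans (Nat.mul_le_mul hb h5)).trans_lt (Nat.blt_eq.mp hf)))

theorem cent_le' (hθ : Function.Injective θ) {t : Γ} {fs : List ℕ} (hf : List.Forall₂ (OrbC E θ T row t) cs fs) {b : ℕ}
    (hb : Nat.card (Subgroup.centralizer {t}) ≤ b) : Nat.card (Subgroup.centralizer {θ t}) ≤ b * (1 + fs.sum) := by
  have := h.fin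
  have : Finite (G ⧸ θ.range) := Nat.finite_of_card_ne_zero h.index_le.1
  rw [PM.card_eq_mul _ (om E θ T row 0)]
  refine Nat.mul_le_mul (le_trans (Nat.card_le_card_of_surjective (α := Subgroup.centralizer {t})
    (fun g => ⟨θ g, by
      rw [Subgroup.mem_inf, Subgroup.mem_centralizer_singleton_iff, ← map_mul, ← map_mul,
        Subgroup.mem_centralizer_singleton_iff.1 g.2]
      exact ⟨rfl, smul_zero' _⟩⟩) fun ⟨g, h1, h2⟩ => ?_) hb) ?_
  · obtain ⟨k, rfl⟩ : g ∈ θ.range := by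
      have h3 : g • om E θ T row 0 = om E θ T row 0 := h2
      rw [om, gel] at h3
      simpa using QuotientGroup.eq.1 h3.symm
    refine ⟨⟨k, Subgroup.mem_centralizer_singleton_iff.2 (hθ ?_)⟩, rfl⟩
    rw [map_mul, map_mul]; exact Subgroup.mem_centralizer_singleton_iff.1 h1
  · have key : ∀ {l : List CI} {fs : List ℕ}, List.Forall₂ (OrbC E θ T row t) l fs →
        {x | (∃ j ∈ 0 :: l.map CI.i, x ∈ Ob θ (om E θ T row j)) ∧
          ∃ g ∈ Subgroup.centralizer {θ t}, g • om E θ T row 0 = x}.ncard ≤ 1 + fs.sum := by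
      intro l fs hl
      induction hl with
      | nil =>
        refine (Set.ncard_le_ncard (t := {om E θ T row 0}) fun x hx => ?_).trans (by simp)
        simpa [Ob, smul_zero', eq_comm] using hx.1
      | @cons c f l fs hc _ ih =>
        refine (Set.ncard_le_ncard (t := {x | x ∈ Ob θ (om E θ T row c.i) ∧
          ∃ g ∈ Subgroup.centralizer {θ t}, g • om E θ T row 0 = x} ∪
          {x | (∃ j ∈ 0 :: l.map CI.i, x ∈ Ob θ (om E θ T row j)) ∧
            ∃ g ∈ Subgroup.centralizer {θ t}, g • om E θ T row 0 = x}) fun x hx => ?_).trans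
          ((Set.ncard_union_le _ _).trans ?_)
        · obtain ⟨⟨j, hj, h1⟩, h2⟩ := hx
          rcases List.mem_cons.1 hj with rfl | hj
          · exact Or.inr ⟨⟨0, List.mem_cons_self, h1⟩, h2⟩
          rcases List.mem_cons.1 hj with rfl | hj
          · exact Or.inl ⟨h1, h2⟩
          · exact Or.inr ⟨⟨j, List.mem_cons_of_mem _ hj, h1⟩, h2⟩
        · rw [List.sum_cons]; unfold OrbC at hc; omega
    refine (Set.ncard_le_ncard ?_).trans (key hf)
    exact fun x hx => ⟨h.cover _, hx⟩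

end DC.Cl

end H15
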