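import Cfsg.Agent.H15.Cnt5

/-! Subgroups of shape `2^(1+12).3.X.2` (`j4_ext`), bounding the centre by chains of centralisers (`chainW`). -/

namespace H15
open H14 L Subgroup
open scoped Pointwise commutatorElement

theorem chainW {G : Type*} [Group G] [Finite G] {y : ℕ → G} {R : List (Word × Word)} (hR : Rels y R) {z : Word}
    (hz : H14.ev y z ≠ 1) {Z : Subgroup G} (l : List (Word × Word))
    (h1 : l.Pairwise fun p q => (q.2 ++ p.1, p.1 ++ q.2) ∈ R) (h2 : ∀ p ∈ l, (p.2 ++ p.1, p.1 ++ p.2 ++ z) ∈ R) :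
    ∀ X : Subgroup G, Z ≤ X → (∀ p ∈ l, H14.ev y p.2 ∈ X ∧ Z ≤ centralizer {H14.ev y p.1}) →
      Nat.card Z * 2 ^ l.length ≤ Nat.card X := by
  induction l with
  | nil => exact fun X h _ => (mul_one _).trans_le (card_le_of_le h)
  | cons p l ih =>
    intro X hX h
    obtain ⟨h3, h4⟩ := List.pairwise_cons.1 h1
    have h5 := ih h4 (fun q hq => h2 q (List.mem_cons_of_mem _ hq)) (X ⊓ centralizer {H14.ev y p.1})
      (le_inf hX (h p List.mem_cons_self).2) fun q hq => ⟨mem_inf.2 ⟨(h q (List.mem_cons_of_mem _ hq)).1, by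
        rw [mem_centralizer_singleton_iff, ← H14.ev_append, ← H14.ev_append]
        exact (hR _ (h3 q hq)).symm⟩, (h q (List.mem_cons_of_mem _ hq)).2⟩
    rw [List.length_cons, pow_succ, ← mul_assoc, mul_comm]
    refine (Nat.mul_le_mul_left 2 h5).trans (not_lt.1 fun h6 => hz ?_)
    have h7 := mem_centralizer_singleton_iff.1 (mem_inf.1 ((eq_of_card_lt inf_le_left h6).ge (h p List.mem_cons_self).1)).2
    have h8 : H14.ev y (p.2 ++ p.1) = H14.ev y (p.1 ++ p.2 ++ z) := hR _ (h2 p List.mem_cons_self)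
    rw [H14.ev_append, H14.ev_append, H14.ev_append, h7] at h8
    exact mul_eq_right.1 h8.symm

theorem j4_ext {G X : Type*} [Group G] [Finite G] [Group X] [IsSimpleGroup X] (hX : Nat.card X = 443520)
    {C Q B : Subgroup G} {w s x : G} (hQ : Q ≤ C) (hB : B ≤ C) (hw : w ∈ C) (hs : s ∈ C)
    (nB : B ≤ normalizer (Q : Set G)) (nw : w ∈ normalizer (Q : Set G)) (ns : s ∈ normalizer (Q : Set G))
    (cB : B ≤ centralizer {w}) (sw : s * w * s⁻¹ = w⁻¹) (w3 : w ^ 3 = 1) (w1 : w ≠ 1) (h4 : ∀ g ∈ Q, g ^ 4 = 1)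
    (hx : x ∈ B) (x1 : x ^ 12 ≠ 1) (hφ : QS X (Q ⊔ zpowers w ⊔ B) (Q ⊔ zpowers w))
    (z1 : 2 ≤ Nat.card (Q ⊓ centralizer (Q : Set G) : Subgroup G))
    (z2 : Nat.card (Q ⊓ centralizer (Q : Set G) : Subgroup G) * 2 ^ 12 ≤ Nat.card Q)
    (hd : ⁅Q, Q⁆ ≤ centralizer (Q : Set G)) (hC : Nat.card C ≤ 21799895040) :
    ∃ Q N M : Subgroup C, Q.Normal ∧ N.Normal ∧ Q ≤ N ∧ N ≤ M ∧ Nat.card Q = 2 ^ 13 ∧ Cfsg.IsExtraspecial 2 Q ∧
      Nat.card N = 3 * 2 ^ 13 ∧ M.index = 2 ∧ ∃ _ : (N.subgroupOf M).Normal, Cfsg.IsM22 (M ⧸ N.subgroupOf M) := by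
  have cz : ∀ {g}, g ∈ centralizer {w} → g ∈ normalizer (zpowers w : Set G) := fun hg =>
    centralizer_le_normalizer _ (by
      rintro _ ⟨k, rfl⟩
      exact (Commute.zpow_right (mem_centralizer_singleton_iff.1 hg) k).symm)
  have sz : s ∈ normalizer (zpowers w : Set G) := mem_normalizer_fintype (by
    rintro _ ⟨k, rfl⟩
    exact ⟨-k, by simp only []; rw [← conj_zpow, sw, inv_zpow']⟩)
  have nQ : Q ⊔ zpowers w ⊔ B ⊔ zpowers s ≤ normalizer (Q : Set G) :=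
    sup_le (sup_le (sup_le le_normalizer (zpowers_le_of_mem nw)) nB) (zpowers_le_of_mem ns)
  have nN : Q ⊔ zpowers w ⊔ B ⊔ zpowers s ≤ normalizer ((Q ⊔ zpowers w : Subgroup G) : Set G) :=
    sup_le (sup_le le_normalizer fun g hg => normalizer_inf_normalizer_le_normalizer_sup _ _ ⟨nB hg, cz (cB hg)⟩)
      (zpowers_le_of_mem (normalizer_inf_normalizer_le_normalizer_sup _ _ ⟨ns, sz⟩))
  have hxN : x ∉ Q ⊔ zpowers w := fun h => by
    obtain ⟨q, hq, _, ⟨k, rfl⟩, e⟩ := (coe_mul_of_right_le_normalizer_left Q _ (zpowers_le_of_mem nw)).subset h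
    have c1 : Commute x (w ^ k) := Commute.zpow_right (mem_centralizer_singleton_iff.1 (cB hx)) k
    have e' : q = x * (w ^ k)⁻¹ := eq_mul_inv_of_mul_eq e
    have c2 : Commute q (w ^ k) := e' ▸ c1.mul_left (Commute.refl _).inv_left
    refine x1 ?_
    rw [← e, c2.mul_pow, show 12 = 4 * 3 from rfl, pow_mul, h4 q hq, one_pow, one_mul, ← zpow_natCast, ← zpow_mul,
      mul_comm, zpow_mul, zpow_natCast, mul_comm, pow_mul, w3, one_pow, one_zpow]
  have hsM : s ∉ Q ⊔ zpowers w ⊔ B := fun h => by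
    have h5 : Q ⊔ zpowers w ⊔ B ≤ Q ⊔ (centralizer {w} ⊓ normalizer (Q : Set G)) :=
      sup_le (sup_le le_sup_left (zpowers_le_of_mem (mem_sup_right ⟨mem_centralizer_singleton_iff.2 rfl, nw⟩)))
        ((le_inf cB nB).trans le_sup_right)
    obtain ⟨q, hq, d, hd, e⟩ := (coe_mul_of_right_le_normalizer_left Q _ inf_le_right).subset (h5 h)
    have h6 : d * w = w * d := mem_centralizer_singleton_iff.1 hd.1
    have h7 : q * (w * q⁻¹ * w⁻¹) = w⁻¹ * w⁻¹ := by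
      rw [← sw, ← show q * d = s from e, mul_assoc q d w, h6]; group
    have h8 := h4 _ (h7 ▸ Q.mul_mem hq ((mem_normalizer_iff.1 nw _).1 (Q.inv_mem hq)))
    refine w1 ?_
    rw [show w = (w⁻¹ * w⁻¹) ^ 4 * (w ^ 3) ^ 3 by group, h8, w3, one_pow, one_mul]
  have h3 : Nat.card (zpowers w) = 3 := by
    have := Fact.mk Nat.prime_three
    rw [Nat.card_zpowers, orderOf_eq_prime w3 w1]
  have dw := card_dvd_of_le (le_sup_right : zpowers w ≤ Q ⊔ zpowers w)
  have hK : Q ⊔ zpowers w ⊔ B ⊔ zpowers s ≤ C :=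
    sup_le (sup_le (sup_le hQ (zpowers_le_of_mem hw)) hB) (zpowers_le_of_mem hs)
  have hQN : Q ≤ Q ⊔ zpowers w := le_sup_left
  have hxM : x ∈ Q ⊔ zpowers w ⊔ B := mem_sup_right hx
  have hNM : Q ⊔ zpowers w ≤ Q ⊔ zpowers w ⊔ B := le_sup_left
  have hsK : s ∈ Q ⊔ zpowers w ⊔ B ⊔ zpowers s := mem_sup_right (mem_zpowers s)
  have hMK : Q ⊔ zpowers w ⊔ B ≤ Q ⊔ zpowers w ⊔ B ⊔ zpowers s := le_sup_left
  generalize Q ⊔ zpowers w ⊔ B ⊔ zpowers s = K at *
  generalize Q ⊔ zpowers w ⊔ B = M at *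
  generalize Q ⊔ zpowers w = N at *
  have hn := (normal_subgroupOf_iff_le_normalizer hNM).2 (hMK.trans nN)
  obtain ⟨φ, hφ⟩ := hφ hn
  obtain ⟨b, hb⟩ := hφ (QuotientGroup.mk ⟨x, hxM⟩)
  let e := MulEquiv.ofBijective φ ⟨inj_of_simple φ (g := b) fun h =>
    hxN ((QuotientGroup.eq_one_iff (N := N.subgroupOf M) _).1 (hb.symm.trans h)), hφ⟩
  have h8 := card_eq_card_quotient_mul_card_subgroup (N.subgroupOf M)
  rw [Nat.card_congr (subgroupOfEquivOfLe hNM).toEquiv, ← Nat.card_congr e.toEquiv, hX] at h8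
  have h9 : 2 * Nat.card M ≤ Nat.card K := not_lt.1 fun h => hsM ((eq_of_card_lt hMK h).ge hsK)
  have := Fact.mk Nat.prime_two
  obtain ⟨m, hm⟩ := IsPGroup.exists_card_eq (p := 2) (G := Q) fun g => ⟨2, Subtype.ext (h4 _ g.2)⟩
  have h10 : 3 * 2 ^ m ≤ Nat.card N := Nat.le_of_dvd Nat.card_pos
    (Nat.Coprime.mul_dvd_of_dvd_of_dvd (Nat.Coprime.pow_right _ (by decide)) (h3 ▸ dw) (hm ▸ card_dvd_of_le hQN))
  have h11 := card_le_of_le hK
  have h12 : 2 ^ m < 2 ^ 14 := by omega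
  have h13 : 2 ^ 13 ≤ 2 ^ m := by omega
  obtain rfl : m = 13 := le_antisymm (Nat.le_of_lt_succ ((Nat.pow_lt_pow_iff_right one_lt_two).1 h12))
    ((Nat.pow_le_pow_iff_right one_lt_two).1 h13)
  obtain rfl : K = C := eq_of_card_lt hK (by omega)
  have h14 : H21.ES 2 Q := ⟨by omega, hd⟩
  have nN' := (normal_subgroupOf_iff_le_normalizer (hNM.trans hMK)).2 nN
  let i := subgroupOfEquivOfLe hMK
  let j := QuotientGroup.congr ((N.subgroupOf K).subgroupOf (M.subgroupOf K)) (N.subgroupOf M) i (by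
    ext g
    exact ⟨fun ⟨_, h, e⟩ => e ▸ h, fun h => ⟨i.symm g, h, i.apply_symm_apply g⟩⟩)
  refine ⟨Q.subgroupOf K, N.subgroupOf K, M.subgroupOf K, (normal_subgroupOf_iff_le_normalizer hQ).2 nQ, nN',
    comap_mono hQN, comap_mono hNM, (Nat.card_congr (subgroupOfEquivOfLe hQ).toEquiv).trans hm,
    H21.isExtraspecial_of_equiv Nat.prime_two (subgroupOfEquivOfLe hQ).symm ((H21.isExtraspecial_iff Nat.prime_two).2
      ⟨h14, fun h => absurd (hm.symm.trans (h14.eq_Z_of_abel h)) (by decide)⟩),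
    (Nat.card_congr (subgroupOfEquivOfLe (hNM.trans hMK)).toEquiv).trans (by omega), ?_, inferInstance,
    (j.trans e.symm).isSimpleGroup, (Nat.card_congr (j.trans e.symm).toEquiv).trans hX⟩
  have := (M.subgroupOf K).index_mul_card
  rw [Nat.card_congr i.toEquiv] at this
  exact Nat.eq_of_mul_eq_mul_right (m := Nat.card M) Nat.card_pos (by omega)

end H15
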