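import Cfsg.Agent.H15.Emb
import Cfsg.Agent.H15.Fi22
import Cfsg.Agent.H15.StdU62
import Cfsg.Agent.S0283

/-! The point stabiliser of `Fi22` is the centraliser of the transposition `a` (`H15.Fi22.cent`) and a perfect
double cover of `U₆(2)` (`dc`, `nonsplit`); the class of `a` is a class of 3-transpositions (`three`). -/

namespace H15.Fi22
open H14 L

theorem base : Base M (bas Fi22P.lv0) := base_of_lv M card (by decide) Fi22P.lvval0
instance instF : PtF 3510 Fi22P.nets (ptF 64 12 Fi22P.nets) := ptF_ok Fi22P.nets_ok (by decide +kernel)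
/-- the letters of `StdU62` and two more words -/
def WU : List Word := [[38, 36, 8, 37, 39],
  [48, 43, 37, 6, 36, 32, 27, 42, 49],
  [46, 49, 14, 48, 37, 35, 49, 32, 24, 34, 48],
  [45, 37, 37, 6, 36, 32, 27, 36, 44],
  [42, 37, 6, 36, 32, 28, 27, 43],
  [45, 40, 44, 34, 14, 16, 27, 8, 39],
  [38, 12, 39],
  [49, 14, 40, 6, 12, 42, 46, 30, 39, 27],
  [46, 49, 37, 38, 42, 6, 14, 43, 12, 0, 24, 40, 12],
  [44, 46, 49, 14, 38, 42, 8, 32, 44, 14, 24, 35, 36],
  [42, 4, 28, 43],
  [44, 49, 14, 39, 48, 10, 37, 0, 27, 42],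
  [44, 44, 46, 38, 36, 6, 14, 32, 46, 31, 8, 30],
  [48, 14, 36, 42, 6, 12, 40, 35, 27, 10, 40],
  [48, 37, 42, 42, 6, 40, 35, 46, 0, 30, 49, 27],
  [48, 42, 44, 38, 6, 32, 14, 46, 27, 49, 6],
  [44, 49, 36, 42, 40, 6, 36, 8],
  [36, 36, 8, 37, 37, 0],
  [45, 46, 39, 14, 34, 12, 37, 0, 27, 14, 40],
  [44, 37, 39, 6, 43, 10, 16, 24, 38, 35]]
theorem chkU : embZ 3510 64 12 Fi22P.nets (bas Fi22P.lv0) WU StdU62.allRels [0] 0 2 = true := by
  decide +kernel
/-- the transposition -/
noncomputable def z : Cfsg.Spor.Fi22 := H14.ev M.gen [0]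
theorem relz : Rels M.gen ([(flat WU (comW [([36], [38])]), [0]), ([0, 0], []),
    (powW ([0] ++ conjW [0] Fi22P.si0.u) 3, []), (powW ([0] ++ conjW [0] Fi22P.si1.u) 2, [])] ++
    Fi22P.lv1.gens.map fun w => (0 :: w, w ++ [0])) :=
  base.rels (ptF 64 12 Fi22P.nets) (by decide +kernel) (by decide +kernel)
theorem z_ne : z ≠ 1 := ne_of_pt M (ptF 64 12 Fi22P.nets) (v := []) (c := 1) (by decide) (by decide +kernel)
theorem orderOf_z : orderOf z = 2 :=
  orderOf_eq_prime ((sq z).trans ((H14.ev_append _ [0] [0]).symm.trans (relz.left ([0, 0], []) (by simp)))) z_ne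
theorem le_cent : H ≤ Subgroup.centralizer {z} := by
  rw [stab, ← stab1, sub_le]
  intro w hw
  have := relz.right _ (List.mem_map_of_mem hw)
  rw [H14.ev_append, ← List.singleton_append, H14.ev_append] at this
  exact Subgroup.mem_centralizer_singleton_iff.2 this
theorem center : Subgroup.center Cfsg.Spor.Fi22 = ⊥ :=
  have := simple
  center_eq_bot_of_simple card (by norm_num)
theorem cent : Subgroup.centralizer {z} = H :=
  centralizer_eq_of_max le_cent (fun Y h1 h2 => by
    rw [stab, ← stab1, ← top] at *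
    exact Fi22P.max M hc Y h1 h2) (by rw [center]; exact z_ne)

theorem nonsplit {F : Type*} [Field F] [Fintype F] (hF : Fintype.card F = 4) :
    DC H (Cfsg.PSU 6 F 2) ∧ Subgroup.center (Cfsg.PSU 6 F 2) = ⊥ := by
  obtain ⟨S⟩ := StdU62.std hF
  obtain ⟨h1, h2, h3, h4⟩ := embZ_of_chk base chkU
  have := Cfsg.Agent.S0283.result (F := F) (q := 2) hF 6 (by decide) (by decide)
  refine ⟨dc_of_emb (cent ▸ Subgroup.mem_centralizer_singleton_iff.2 rfl) orderOf_z
    (fun g hg => Subgroup.mem_centralizer_singleton_iff.1 (le_cent hg)) (stab ▸ h2) h1 h3 h4 (x := S.M.gen 0)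
    (fun Δ _ y hy => let ⟨φ, _, h⟩ := StdU62.hom' S y hy; ⟨φ, h 0 (by decide)⟩) (ps := [([36], [38])])
    ((ev_flat _ _ _).symm.trans (relz.left _ List.mem_cons_self)) S.ne (by norm_num) S.card ?_,
    center_eq_bot_of_simple S.card (by norm_num)⟩
  rw [stab, ← stab1]
  exact (Fi22P.lev0 M hc).2.1

theorem three : Cfsg.IsThreeTranspositionClass (conjugatesOf z) := by
  have := simple
  refine three_class (three_of_suborbits M (by decide) stab cent orderOf_z Fi22P.cov ?_ ?_)
    (closure_conj_top z_ne)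
  · rw [stab, ← stab1]
    exact fa_cons (orb_of_chk M Fi22P.so0).1 (fa_cons (orb_of_chk M Fi22P.so1).1 fa_nil)
  · exact fa_cons (Or.inr (pow_of_rels (d := [0]) fun p hp => relz.left p (by simp_all)))
      (fa_cons (Or.inl (pow_of_rels (d := [0]) fun p hp => relz.left p (by simp_all))) fa_nil)

theorem card_class : Nat.card (conjugatesOf z) = 3510 := by
  rw [card_conjugatesOf, cent, stab, index_stab0]

end H15.Fi22
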