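import Cfsg.Prelude.Def_Sporadic
import Cfsg.Agent.H15.HN
import Cfsg.Agent.H15.Carm
import Cfsg.Agent.H15.HNAM

/-! An alternating group of degree 12 in `Cfsg.Spor.HN` and the action on its cosets. -/

set_option Elab.async false
set_option maxRecDepth 100000

theorem H15.HN.gen_range : ∀ l < 5, H15.HNM.gen l ∈ H15.HN.rho.range := fun l hl =>
  (Nat.lt_succ_iff_lt_or_eq.1 hl).elim (fun h => ⟨_, H15.HN.rho_g l h⟩) fun h => ⟨_, h ▸ H15.HN.rho_z⟩

namespace H15.HNA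
open H14

/-- definitions of the new letters -/
def ds : List Word := [[2, 1, 2, 0, 3, 4, 2, 1, 3, 0, 3, 4, 2, 1, 2, 0, 3], [4, 4, 3, 4, 2, 4, 3, 4], [10, 13, 11, 12], [14, 14, 14, 14, 14], [10, 10, 12, 11, 13, 13, 16, 12, 12, 10, 13, 11, 11], [11, 13, 11, 12, 11, 11, 16, 10, 10, 13, 10, 12, 10], [12, 10, 10, 12, 11, 16, 10, 13, 11, 11, 13], [12, 12, 10, 12, 12, 12, 10, 10, 16, 11, 11, 13, 13, 13, 11, 13, 13], [10, 10, 12, 10, 10, 13, 13, 10, 16, 11, 12, 12, 11, 11, 13, 11, 11], [18, 16], [16, 18], [4, 7, 28, 6, 5, 28, 4, 7], [4, 6, 2, 4, 4, 0, 2, 1, 28, 0, 3, 1, 5, 5, 3, 7, 5, 28, 4, 6, 2, 4, 4, 0, 2, 1, 28, 0, 3, 1, 5, 5, 3, 7, 5, 28, 4, 6, 2, 4, 4, 0, 2, 1], [33, 35, 33, 33, 33, 30, 32, 32, 32, 34, 32, 30, 33, 35, 33, 33, 33], [35, 35, 35, 30, 34, 34, 34, 30, 35, 35, 35], [37, 37, 20, 36, 36], [38, 38, 20, 39, 39], [37, 38, 20, 39, 36], [39, 36, 38, 37, 20, 36, 39, 37, 38]]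
/-- relators -/
def R : List (List ℕ) := [[16, 16, 16], [18, 18, 18], [16, 18, 16, 18], [20, 20, 20], [16, 20, 16, 20], [18, 20, 18, 20], [22, 22, 22], [16, 22, 16, 22], [18, 22, 18, 22], [20, 22, 20, 22], [24, 24, 24], [16, 24, 16, 24], [18, 24, 18, 24], [20, 24, 20, 24], [22, 24, 22, 24], [26, 26, 26], [16, 26, 16, 26], [18, 26, 18, 26], [20, 26, 20, 26], [22, 26, 22, 26], [24, 26, 24, 26], [40, 40, 40], [16, 40, 16, 40], [18, 40, 18, 40], [20, 40, 20, 40], [22, 40, 22, 40], [24, 40, 24, 40], [26, 40, 26, 40], [42, 42, 42], [16, 42, 16, 42], [18, 42, 18, 42], [20, 42, 20, 42], [22, 42, 22, 42], [24, 42, 24, 42], [26, 42, 26, 42], [40, 42, 40, 42], [44, 44, 44], [16, 44, 16, 44], [18, 44, 18, 44], [20, 44, 20, 44], [22, 44, 22, 44], [24, 44, 24, 44], [26, 44, 26, 44], [40, 44, 40, 44], [42, 44, 42, 44], [46, 46, 46], [16, 46, 16, 46], [18, 46, 18, 46], [20, 46, 20, 46], [22, 46, 22, 46], [24, 46, 24, 46], [26,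 46, 26, 46], [40, 46, 40, 46], [42, 46, 42, 46], [44, 46, 44, 46]]
/-- relations to be checked -/
noncomputable def rd : List (Word × Word) := defRels ds 5
def rl : List (Word × Word) := R.map fun w => (w.reverse, [])

theorem hd0 : HNAM.c.rels HNAM.ms (List.take 6 (List.drop 0 rd)) = true := by decide +kernel
theorem hd1 : HNAM.c.rels HNAM.ms (List.take 6 (List.drop 6 rd)) = true := by decide +kernel
theorem hd2 : HNAM.c.rels HNAM.ms (List.take 1 (List.drop 12 rd)) = true := by decide +kernel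
theorem hd3 : HNAM.c.rels HNAM.ms (List.drop 13 rd) = true := by decide +kernel
theorem relD : Rels HNAM.gen (List.drop 0 rd) := (rels_td 0 6 6 rfl (BP.rels_of_chk HNAM.c_ok HNAM.hgen hd0) (rels_td 6 6 12 rfl (BP.rels_of_chk HNAM.c_ok HNAM.hgen hd1) (rels_td 12 1 13 rfl (BP.rels_of_chk HNAM.c_ok HNAM.hgen hd2) (BP.rels_of_chk HNAM.c_ok HNAM.hgen hd3))))
theorem hr0 : HNAM.c.rels HNAM.ms (List.take 16 (List.drop 0 rl)) = true := by decide +kernel
theorem hr1 : HNAM.c.rels HNAM.ms (List.take 15 (List.drop 16 rl)) = true := by decide +kernel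
theorem hr2 : HNAM.c.rels HNAM.ms (List.take 15 (List.drop 31 rl)) = true := by decide +kernel
theorem hr3 : HNAM.c.rels HNAM.ms (List.drop 46 rl) = true := by decide +kernel
theorem relR : Rels HNAM.gen (List.drop 0 rl) := (rels_td 0 16 16 rfl (BP.rels_of_chk HNAM.c_ok HNAM.hgen hr0) (rels_td 16 15 31 rfl (BP.rels_of_chk HNAM.c_ok HNAM.hgen hr1) (rels_td 31 15 46 rfl (BP.rels_of_chk HNAM.c_ok HNAM.hgen hr2) (BP.rels_of_chk HNAM.c_ok HNAM.hgen hr3))))

theorem ex_y : ∃ y : ℕ → Cfsg.Spor.HN, ∀ l < 5 + ds.length, HN.rho (y l) = HNAM.gen l :=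
  exists_pull HN.rho (fun l hl => HNAM.gen_old l hl ▸ HN.gen_range l hl) (by decide +kernel) relD
/-- the letters -/
noncomputable def y : ℕ → Cfsg.Spor.HN := ex_y.choose
theorem rho_y : ∀ l < 24, HN.rho (y l) = HNAM.gen l := ex_y.choose_spec
theorem rel : RelL y R := (relL_of_rels relR).pull HN.main.2.1 rho_y (by decide +kernel)
/-- the Carmichael generators -/
def D : List (List ℕ) := [[16], [18], [20], [22], [24], [26], [40], [42], [44], [46]]
theorem relA : RelL (fun l => ev (letter y) (D.getD l [])) (carm 10) := RelL.of_sb2 (rel.sub (by decide +kernel))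
theorem ne1 : ev (letter y) (D.getD 0 []) ≠ 1 := fun h => BP.ne_of_fld HNAM.c_ok HNAM.hgen (u := D.getD 0 []) (v := [0, 1])
  0 0 (by decide +kernel) (by
    rw [← evL_congr rho_y (by decide), ← map_evL, h, map_one]; exact (RelL.fr (R := []) fa_nil (by decide)).symm)

theorem main : ∃ H : Subgroup (Equiv.Perm (Fin 1140000)), Cfsg.IsHN H ∧ MulAction.IsPretransitive H (Fin 1140000) ∧
    Nonempty (MulAction.stabilizer H (0 : Fin 1140000) ≃* alternatingGroup (Fin 12)) := by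
  obtain ⟨-, -, -, hc, hs⟩ := HN.main
  obtain ⟨x, hx⟩ := homA12
  obtain ⟨φ, -, h⟩ := hx _ _ relA
  have := alternatingGroup.isSimpleGroup (α := Fin 12) (by simp)
  let e := MonoidHom.ofInjective (inj_of_simple φ (h ▸ ne1))
  have hi := φ.range.index_mul_card
  rw [← Nat.card_congr e.toEquiv, cardA12, hc] at hi
  obtain ⟨H, i, h1, ⟨j⟩⟩ := coset_rep φ.range (n := 1140000) (by omega) (by decide)
  exact ⟨H, ⟨i.symm.isSimpleGroup, (Nat.card_congr i.toEquiv).symm.trans hc⟩, h1, ⟨j.trans e.symm⟩⟩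

end H15.HNA
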