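import Cfsg.Agent.H15.Emb
import Cfsg.Agent.H15.He
import Cfsg.Agent.H15.StdS44
import Cfsg.Agent.S0270

/-! The point stabiliser of `He` has a subgroup `Sp₄(4)` of index two (`H15.He.two`). -/

namespace H15.He
open H14 L

theorem base : Base M (bas HeP.lv0) := base_of_lv M card (by decide) HeP.lvval0
/-- the letters of `StdS44` -/
def WS : List Word := [[0, 6, 24, 10, 6, 18, 21, 4, 22],
  [6, 27, 28, 19, 0, 6, 18],
  [0, 6, 22, 4, 18, 20, 8],
  [30, 27, 25, 27, 4, 21, 0, 4],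
  [0, 8, 6, 22, 24, 4, 20, 19],
  [30, 6, 8, 26, 18, 30, 20],
  [30, 6, 27, 28, 25, 18, 25, 28],
  [6, 24, 18, 6, 19],
  [0, 10, 22, 19, 20, 19],
  [6, 26, 25, 4, 21, 0, 4]]
theorem chkS : embZ 2058 128 12 HeP.nets (bas HeP.lv0) WS StdS44.allRels [] 0 1 = true := by
  decide +kernel

theorem two {F : Type*} [Field F] [Fintype F] (hF : Fintype.card F = 4) :
    ∃ K : Subgroup (MulAction.stabilizer Cfsg.Spor.He (M.dec 0)), K.Normal ∧ K.index = 2 ∧
      Nonempty (K ≃* Matrix.symplecticGroup (Fin 2) F) := by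
  obtain ⟨S⟩ := StdS44.stdSp hF
  obtain ⟨S'⟩ := StdS44.std hF
  obtain ⟨e⟩ := S.iso S'
  obtain ⟨h1, h2, h3⟩ := emb_of_chk base chkS
  obtain ⟨φ, h4, h5⟩ := StdS44.hom' S _ h1
  have := Cfsg.Agent.S0270.result (F := F) 2 le_rfl fun _ => by omega
  have := e.isSimpleGroup
  exact two_of_range φ (g := S.M.gen 0) (h5 0 (by decide) ▸ h3) (h4 ▸ h2 _) S.ne S.card
    (stab1 ▸ (HeP.lev0 M hc).2.1)

end H15.He
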