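import Cfsg.Agent.H15.J4T

/-! The isomorphism `eXG` from the presented group `Cfsg.Spor.J4` to the matrix group `XG`. -/

set_option Elab.async false
set_option maxRecDepth 8000

namespace H15.J4
open H14

theorem range_aux {G K : Type*} [Group G] [Group K] {ρ : G →* K} {g : ℕ → G} {m : ℕ → K} (ht : Sw g (lts 26) = ⊤)
    (h : ∀ l < 26, ρ (g l) = m l) : ρ.range = Sw m (lts 26) := by
  rw [MonoidHom.range_eq_map, ← ht, map_Sw]
  exact le_antisymm (lts_le fun l hl => (h l hl).symm ▸ gen_mem_lts m hl)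
    (lts_le fun l hl => h l hl ▸ gen_mem_lts (fun l => ρ (g l)) hl)

theorem range_rho : rho.range = XG := range_aux top26 rho_gl

/-- the isomorphism -/
noncomputable def eXG : Cfsg.Spor.J4 ≃* XG :=
  (MonoidHom.ofInjective mainG.2.1).trans (MulEquiv.subgroupCongr range_rho)

theorem eXG_val (a : Cfsg.Spor.J4) : XG.subtype (eXG a) = rho a := rfl
theorem eXG_g : ∀ l < 26, eXG (g l) = gx l := fun l hl =>
  inj (by rw [eXG_val, rho_gl l hl, rho_g l hl])

end H15.J4
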