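import Cfsg.Agent.H15.Emb
import Cfsg.Agent.H15.ON
import Cfsg.Agent.H15.StdL37
import Cfsg.Agent.S0249

/-! The point stabiliser of `ON` has a subgroup `L₃(7)` of index two (`H15.ON.two`). -/

namespace H15.ON
open H14 L

theorem base : Base M (bas ONP.lv0) := base_of_lv M card (by decide) ONP.lvval0
/-- the letters of `StdL37` -/
def WL : List Word := [[22, 26, 19, 6, 4, 21, 18],
  [22, 27, 20, 8, 26],
  [2, 24, 27, 19, 6, 4, 20],
  [12, 29, 10, 18, 18, 20, 19],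
  [24, 2, 4, 20, 4, 19, 6],
  [24, 28, 18, 26, 28, 10, 8],
  [2, 23, 29, 6, 20, 4, 24],
  [2, 27, 20, 10, 28, 8, 18],
  [2, 12, 28, 8, 24, 20, 2, 6]]
theorem chkL : embZ 122760 512 17 ONP.nets (bas ONP.lv0) WL StdL37.allRels [] 0 1 = true := by
  decide +kernel

theorem two {F : Type*} [Field F] [Fintype F] (hF : Fintype.card F = 7) :
    ∃ K : Subgroup (MulAction.stabilizer Cfsg.Spor.ON (M.dec 0)), K.Normal ∧ K.index = 2 ∧
      Nonempty (K ≃* Matrix.ProjectiveSpecialLinearGroup (Fin 3) F) := by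
  obtain ⟨S⟩ := StdL37.std hF
  obtain ⟨h1, h2, h3⟩ := emb_of_chk base chkL
  obtain ⟨φ, h4, h5⟩ := StdL37.hom' S _ h1
  have := Cfsg.Agent.S0249.result (F := F) 3 le_rfl
  exact two_of_range φ (g := S.M.gen 0) (h5 0 (by decide) ▸ h3) (h4 ▸ h2 _) S.ne S.card
    (stab1 ▸ (ONP.lev0 M hc).2.1)

end H15.ON
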