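import Cfsg.Agent.H6.KpX

/-! Piece C of S4930: a normal complement to `N_G(P)` makes restriction injective on `p'`-degree characters. -/
set_option autoImplicit false
namespace H15.OdC
open Subgroup Cfsg H5 H8
open scoped Pointwise

theorem pC {G : Type*} [Group G] [Finite G] (p : ℕ) [Fact p.Prime] (P : Sylow p G) (K : Subgroup G) [K.Normal]
    (hi : K ⊓ normalizer ((P : Subgroup G) : Set G) = ⊥) (hs : K ⊔ normalizer ((P : Subgroup G) : Set G) = ⊤) :
    (∑ᶠ χ : {χ : IrrCharacter G // ¬ p ∣ charDegree (χ : G → ℂ)}, charDegree (χ.1 : G → ℂ) ^ 2) ≤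
      ∑ᶠ η : {η : IrrCharacter (normalizer ((P : Subgroup G) : Set G)) // ¬ p ∣ charDegree η.1},
        charDegree η.1.1 ^ 2 := by
  classical
  set N := normalizer ((P : Subgroup G) : Set G) with hN
  have hk : ∀ χ : {χ : IrrCharacter G // ¬ p ∣ charDegree (χ : G → ℂ)}, K ≤ charKer χ.1.1 := fun χ =>
    H6.KpX.le_ker P.isPGroup' (eq_bot_iff.2 (hi ▸ inf_le_inf_left K (centralizer_le_normalizer _))) χ.1.2 χ.2
  have hdec : ∀ g : G, ∃ k ∈ K, ∃ n ∈ N, k * n = g := by
    intro g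
    have : g ∈ ((K ⊔ N : Subgroup G) : Set G) := by rw [hs]; trivial
    rw [normal_mul] at this
    exact this
  have hirr : ∀ χ : {χ : IrrCharacter G // ¬ p ∣ charDegree (χ : G → ℂ)},
      IsIrrCharacter N (fun n : N => χ.1.1 n) := by
    intro χ
    obtain ⟨χ', h1, h2⟩ := χ.1.2.exists_deflate K (hk χ)
    have h3 := h1.comp_surjective ((QuotientGroup.mk' K).comp N.subtype) (by
      intro q
      obtain ⟨g, rfl⟩ := QuotientGroup.mk_surjective q
      obtain ⟨k, hk', n, hn, rfl⟩ := hdec g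
      refine ⟨⟨n, hn⟩, ?_⟩
      show (n : G ⧸ K) = ((k * n : G) : G ⧸ K)
      rw [QuotientGroup.mk_mul, (QuotientGroup.eq_one_iff k).2 hk', one_mul])
    have e : (fun n : N => χ.1.1 n) = fun x => χ' (((QuotientGroup.mk' K).comp N.subtype) x) :=
      funext fun x => (h2 x).symm
    rw [e]; exact h3
  let f : {χ : IrrCharacter G // ¬ p ∣ charDegree (χ : G → ℂ)} →
      {η : IrrCharacter N // ¬ p ∣ charDegree η.1} := fun χ =>
    ⟨⟨fun n : N => χ.1.1 n, hirr χ⟩, by
      rw [charDegree_congr (χ := fun n : N => χ.1.1 n) (ψ := χ.1.1) rfl]; exact χ.2⟩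
  have hf : Function.Injective f := by
    intro a b h
    refine Subtype.ext (Subtype.ext (funext fun g => ?_))
    obtain ⟨k, hk', n, hn, rfl⟩ := hdec g
    rw [hk a hk' n, hk b hk' n]
    exact congrFun (congrArg (fun η => η.1.1) h) ⟨n, hn⟩
  rw [finsum_eq_sum_of_fintype, finsum_eq_sum_of_fintype]
  calc _ = ∑ χ, charDegree (f χ).1.1 ^ 2 := Finset.sum_congr rfl fun χ _ => by
        rw [charDegree_congr (χ := (f χ).1.1) (ψ := χ.1.1) rfl]
    _ = ∑ η ∈ Finset.univ.image f, charDegree η.1.1 ^ 2 := by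
        rw [Finset.sum_image fun a _ b _ h => hf h]
    _ ≤ _ := Finset.sum_le_sum_of_subset (Finset.subset_univ _)

end H15.OdC
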