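import Cfsg.Agent.H26.Qw0

/-! Piece `P0a` of S1829: the concrete embedding of `D₈ ≀ 2` in `S₄ ≀ 2`. -/

set_option autoImplicit false

namespace H15.Qw
open H326.Qw DihedralGroup Equiv

abbrev S4 := Perm (Fin 4)
abbrev S8 := Perm (Fin 4 ⊕ Fin 4)

def av : S4 := swap 0 3 * swap 1 2
def rho : S4 := av * swap 0 1
def df : D → S4
  | r i => rho ^ i.val
  | sr i => av * rho ^ i.val

theorem df_mul : ∀ a b : D, df (a * b) = df a * df b := by decide +kernel
theorem df_one : df 1 = 1 := by decide +kernel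
theorem df_inj : ∀ a b : D, df a = df b → a = b := by decide +kernel
theorem df_V : ∀ (σ : S4) (d : D), mD 2 d = true → ∃ d', mD 2 d' = true ∧ σ * df d * σ⁻¹ = df d' := by
  decide +kernel
theorem df_U : ∀ (σ : S4) (d' : D), mD 3 d' = true → σ * df (sr 1) * σ⁻¹ = df d' → ∃ d, df d = σ := by
  decide +kernel

def sw : S8 := Equiv.sumComm _ _
def Ph (σ τ : S4) (e : Bool) : S8 := Perm.sumCongr σ τ * (if e then sw else 1)

theorem Ph_ff (a b c d : S4) (e : Bool) : Ph a b false * Ph c d e = Ph (a * c) (b * d) e := by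
  cases e <;> ext (i | i) <;> rfl
theorem Ph_tt (a b c d : S4) (e : Bool) : Ph a b true * Ph c d e = Ph (a * d) (b * c) (!e) := by
  cases e <;> ext (i | i) <;> rfl
theorem Ph_one : Ph 1 1 false = 1 := by ext (i | i) <;> rfl

theorem Ph_inj {a b c d : S4} {e f : Bool} (h : Ph a b e = Ph c d f) : a = c ∧ b = d ∧ e = f := by
  have h1 := fun i => congrArg (fun g : S8 => g (Sum.inl i)) h
  have h2 := fun i => congrArg (fun g : S8 => g (Sum.inr i)) h
  cases e <;> cases f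
  · exact ⟨Equiv.ext fun i => Sum.inl.inj (h1 i), Equiv.ext fun i => Sum.inr.inj (h2 i), rfl⟩
  · exact absurd (h1 0) Sum.inl_ne_inr
  · exact absurd (h1 0) Sum.inr_ne_inl
  · exact ⟨Equiv.ext fun i => Sum.inl.inj (h2 i), Equiv.ext fun i => Sum.inr.inj (h1 i), rfl⟩

theorem cjf (σ τ a b : S4) : Ph σ τ false * Ph a b false * (Ph σ τ false)⁻¹ =
    Ph (σ * a * σ⁻¹) (τ * b * τ⁻¹) false := by
  rw [mul_inv_eq_iff_eq_mul, Ph_ff, Ph_ff]; simp
theorem cjt (σ τ a b : S4) : Ph σ τ true * Ph a b false * (Ph σ τ true)⁻¹ =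
    Ph (σ * b * σ⁻¹) (τ * a * τ⁻¹) false := by
  rw [mul_inv_eq_iff_eq_mul, Ph_ff, Ph_tt]; simp

open Pointwise in
theorem Ph_mem (σ τ : S4) (e : Bool) : Ph σ τ e ∈ Cfsg.blockStabilizerS4wr2 := by
  have hL : ∀ e, Ph σ τ e • Set.range (Sum.inl : Fin 4 → Fin 4 ⊕ Fin 4) =
      if e then Set.range Sum.inr else Set.range Sum.inl := by
    intro e
    ext y
    rw [Set.mem_smul_set]
    cases e
    · constructor
      · rintro ⟨_, ⟨i, rfl⟩, rfl⟩; exact ⟨σ i, rfl⟩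
      · rintro ⟨i, rfl⟩
        exact ⟨_, ⟨σ.symm i, rfl⟩, congrArg Sum.inl (σ.apply_symm_apply i)⟩
    · constructor
      · rintro ⟨_, ⟨i, rfl⟩, rfl⟩; exact ⟨τ i, rfl⟩
      · rintro ⟨i, rfl⟩
        exact ⟨_, ⟨τ.symm i, rfl⟩, congrArg Sum.inr (τ.apply_symm_apply i)⟩
  have hR : ∀ e, Ph σ τ e • Set.range (Sum.inr : Fin 4 → Fin 4 ⊕ Fin 4) =
      if e then Set.range Sum.inl else Set.range Sum.inr := by
    intro e
    ext y
    rw [Set.mem_smul_set]
    cases e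
    · constructor
      · rintro ⟨_, ⟨i, rfl⟩, rfl⟩; exact ⟨τ i, rfl⟩
      · rintro ⟨i, rfl⟩
        exact ⟨_, ⟨τ.symm i, rfl⟩, congrArg Sum.inr (τ.apply_symm_apply i)⟩
    · constructor
      · rintro ⟨_, ⟨i, rfl⟩, rfl⟩; exact ⟨σ i, rfl⟩
      · rintro ⟨i, rfl⟩
        exact ⟨_, ⟨σ.symm i, rfl⟩, congrArg Sum.inl (σ.apply_symm_apply i)⟩
  unfold Cfsg.blockStabilizerS4wr2
  rw [MulAction.mem_stabilizer_iff, Set.smul_set_insert, Set.smul_set_singleton, hL, hR]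
  cases e
  · rfl
  · exact Set.pair_comm _ _

open Pointwise in
theorem Ph_surj (w : S8) (hw : w ∈ Cfsg.blockStabilizerS4wr2) : ∃ σ τ e, w = Ph σ τ e := by
  unfold Cfsg.blockStabilizerS4wr2 at hw
  rw [MulAction.mem_stabilizer_iff, Set.smul_set_insert, Set.smul_set_singleton] at hw
  have h1 : w • Set.range (Sum.inl : Fin 4 → Fin 4 ⊕ Fin 4) ∈
      ({Set.range Sum.inl, Set.range Sum.inr} : Set (Set (Fin 4 ⊕ Fin 4))) := by
    rw [← hw]; exact Set.mem_insert _ _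
  rcases h1 with h | h
  · have : Set.MapsTo w (Set.range Sum.inl) (Set.range Sum.inl) := fun y hy => by
      rw [← h]; exact Set.smul_mem_smul_set hy
    obtain ⟨⟨σ, τ⟩, hs⟩ := Perm.mem_sumCongrHom_range_of_perm_mapsTo_inl this
    exact ⟨σ, τ, false, by rw [← hs]; ext (i | i) <;> rfl⟩
  · have : Set.MapsTo (sw * w) (Set.range Sum.inl) (Set.range Sum.inl) := fun y hy => by
      have : w y ∈ Set.range (Sum.inr : Fin 4 → Fin 4 ⊕ Fin 4) := by
        rw [← Set.mem_singleton_iff.1 h]; exact Set.smul_mem_smul_set hy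
      obtain ⟨i, hi⟩ := this
      exact ⟨i, by rw [Perm.mul_apply, ← hi]; rfl⟩
    obtain ⟨⟨σ, τ⟩, hs⟩ := Perm.mem_sumCongrHom_range_of_perm_mapsTo_inl this
    refine ⟨τ, σ, true, ?_⟩
    have h2 : w = sw * (sw * w) := by
      rw [← mul_assoc, show sw * sw = 1 by ext (i | i) <;> rfl, one_mul]
    rw [h2, ← hs]; ext (i | i) <;> rfl

def ps : TT →* Cfsg.blockStabilizerS4wr2 where
  toFun t := ⟨Ph (df t.a) (df t.b) t.e, Ph_mem _ _ _⟩
  map_one' := Subtype.ext (by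
    show Ph (df 1) (df 1) false = 1
    rw [df_one, Ph_one])
  map_mul' := by
    rintro ⟨a, b, _ | _⟩ ⟨c, d, e⟩ <;> refine Subtype.ext ?_
    · show Ph (df (a * c)) (df (b * d)) e = Ph _ _ false * Ph _ _ e
      rw [Ph_ff, df_mul, df_mul]
    · show Ph (df (a * d)) (df (b * c)) (!e) = Ph _ _ true * Ph _ _ e
      rw [Ph_tt, df_mul, df_mul]

theorem ps_val (t : TT) : (ps t : S8) = Ph (df t.a) (df t.b) t.e := rfl

def x3 : S4 := swap 0 1 * swap 1 2
def xx : Cfsg.blockStabilizerS4wr2 := ⟨Ph x3 1 false, Ph_mem _ _ _⟩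

theorem ps_inj : Function.Injective ps := by
  intro t t' h
  obtain ⟨h1, h2, h3⟩ := Ph_inj (congrArg Subtype.val h)
  exact TT.ext (df_inj _ _ h1) (df_inj _ _ h2) h3

theorem mpA (g : Cfsg.blockStabilizerS4wr2) : Mp ps A A g := by
  obtain ⟨g, hg⟩ := g
  obtain ⟨σ, τ, e, rfl⟩ := Ph_surj g hg
  rintro ⟨a, b, e'⟩ ⟨rfl, ha, hb⟩
  cases e
  · obtain ⟨a', ha', h1⟩ := df_V σ a ha
    obtain ⟨b', hb', h2⟩ := df_V τ b hb
    refine ⟨⟨a', b', false⟩, ⟨rfl, ha', hb'⟩, Subtype.ext ?_⟩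
    show Ph σ τ false * Ph (df a) (df b) false * (Ph σ τ false)⁻¹ = Ph (df a') (df b') false
    rw [cjf, h1, h2]
  · obtain ⟨a', ha', h1⟩ := df_V τ a ha
    obtain ⟨b', hb', h2⟩ := df_V σ b hb
    refine ⟨⟨b', a', false⟩, ⟨rfl, hb', ha'⟩, Subtype.ext ?_⟩
    show Ph σ τ true * Ph (df a) (df b) false * (Ph σ τ true)⁻¹ = Ph (df b') (df a') false
    rw [cjt, h1, h2]

theorem p0a : H326.Qw.P0a := by
  refine ⟨ps, xx, ⟨ps_inj, ?_, ?_, ?_, ?_, ?_, ?_, ?_, ?_, ?_⟩, mpA⟩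
  · have h1 := ps.range.card_mul_index
    have h2 : Nat.card ps.range = 128 := by
      rw [← card_TT]; exact (Nat.card_congr (MonoidHom.ofInjective ps_inj).toEquiv).symm
    have h3 := Subgroup.card_subgroup_dvd_card Cfsg.blockStabilizerS4wr2
    have h4 : Nat.card S8 = 128 * 315 := by
      rw [Nat.card_eq_fintype_card, Fintype.card_perm]; simp [Nat.factorial]
    rw [← h1, h2, h4] at h3
    intro h
    have := h.trans (Nat.dvd_of_mul_dvd_mul_left (by norm_num) h3)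
    omega
  · exact Subtype.ext (by decide +kernel)
  · exact Subtype.ext (by decide +kernel)
  · exact Subtype.ext (by decide +kernel)
  · exact Subtype.ext (by decide +kernel)
  · rintro ⟨a, b, e⟩ ⟨rfl, ha, -⟩
    have : a = 1 := (by decide : ∀ a : D, mD 0 a = true → a = 1) a ha
    subst this
    refine Subtype.ext ?_
    show Ph x3 1 false * Ph (df 1) (df b) false = Ph (df 1) (df b) false * Ph x3 1 false
    rw [Ph_ff, Ph_ff, df_one]; simp
  · exact Subtype.ext (by decide +kernel)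
  · rintro ⟨g, hg⟩ - h
    obtain ⟨σ, τ, e, rfl⟩ := Ph_surj g hg
    have h' := congrArg Subtype.val h
    have hne : df (r 2) ≠ 1 := by decide +kernel
    cases e
    · change Ph σ τ false * Ph (df (r 2)) (df 1) false * (Ph σ τ false)⁻¹ = Ph (df (r 2)) (df (r 2)) false at h'
      rw [cjf, df_one] at h'
      exact hne (by rw [← (Ph_inj h').2.1]; simp)
    · change Ph σ τ true * Ph (df (r 2)) (df 1) false * (Ph σ τ true)⁻¹ = Ph (df (r 2)) (df (r 2)) false at h'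
      rw [cjt, df_one] at h'
      exact hne (by rw [← (Ph_inj h').1]; simp)
  · rintro ⟨g, hg⟩ - h
    obtain ⟨σ, τ, e, rfl⟩ := Ph_surj g hg
    obtain ⟨⟨a, b, e1⟩, ⟨rfl, ha, hb⟩, h1⟩ := h u1 (by decide)
    obtain ⟨⟨c, d, e2⟩, ⟨rfl, hc, hd⟩, h2⟩ := h u2 (by decide)
    have h1' := congrArg Subtype.val h1
    have h2' := congrArg Subtype.val h2
    cases e
    · change Ph σ τ false * Ph (df (sr 1)) (df 1) false * (Ph σ τ false)⁻¹ = Ph (df a) (df b) false at h1'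
      change Ph σ τ false * Ph (df 1) (df (sr 1)) false * (Ph σ τ false)⁻¹ = Ph (df c) (df d) false at h2'
      rw [cjf] at h1' h2'
      obtain ⟨p, rfl⟩ := df_U σ a ha (Ph_inj h1').1
      obtain ⟨q, rfl⟩ := df_U τ d hd (Ph_inj h2').2.1
      exact ⟨⟨p, q, false⟩, rfl⟩
    · change Ph σ τ true * Ph (df (sr 1)) (df 1) false * (Ph σ τ true)⁻¹ = Ph (df a) (df b) false at h1'
      change Ph σ τ true * Ph (df 1) (df (sr 1)) false * (Ph σ τ true)⁻¹ = Ph (df c) (df d) false at h2'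
      rw [cjt] at h1' h2'
      obtain ⟨p, rfl⟩ := df_U σ c hc (Ph_inj h2').1
      obtain ⟨q, rfl⟩ := df_U τ b hb (Ph_inj h1').2.1
      exact ⟨⟨p, q, true⟩, rfl⟩

end H15.Qw
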