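import Cfsg.Agent.H14.Dw2
import Cfsg.Agent.H15.Std5

/-! Standard machine: `alternatingGroup (Fin 4)`, generators the 3-cycles `0 ↦ 1 ↦ i ↦ 0`
Generated certificate (tools14/pkgen, tools15/std.py) for the permutation group StdAlt4 of degree 4, order 12, base 0 1. -/
set_option autoImplicit false
set_option maxRecDepth 100000

namespace H15.StdAlt4
open H14

noncomputable def n0 : Net := (.cons (nat_lit 1) (nat_lit 0x4)
(.cons (nat_lit 2) (nat_lit 0x2)
(.cons (nat_lit 1) (nat_lit 0x5)
.nil)))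
theorem n0_ok : Net.ok 4 n0 = true := by decide +kernel
noncomputable def n1 : Net := (.cons (nat_lit 2) (nat_lit 0x2)
(.cons (nat_lit 1) (nat_lit 0x1)
.nil))
theorem n1_ok : Net.ok 4 n1 = true := by decide +kernel
noncomputable def n2 : Net := (.cons (nat_lit 2) (nat_lit 0x2)
(.cons (nat_lit 1) (nat_lit 0x4)
.nil))
theorem n2_ok : Net.ok 4 n2 = true := by decide +kernel
noncomputable def nets : List Net := [n0, n1, n2]
theorem nets_ok : netsOk 4 nets = true := List.all_eq_true.2 (fa_cons n0_ok (fa_cons n1_ok (fa_cons n2_ok (fa_nil))))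
noncomputable def ws2 : List Word := []
noncomputable def lev1 : Level := ⟨nat_lit 1,
[⟨[nat_lit 4], [], [],
[⟨nat_lit 0, [], nat_lit 1, [], []⟩,
⟨nat_lit 1, [], nat_lit 2, [], []⟩,
⟨nat_lit 2, [], nat_lit 0, [], []⟩],
[]⟩],
[⟨dw (nat_lit 0x01), (nat_lit 0x4), [], .nil, []⟩,
⟨dw (nat_lit 0x02), (nat_lit 0x8), [], .nil, []⟩]⟩
noncomputable def ex1 : List Word := []
noncomputable def ws1 : List Word := List.append ex1 (lev1.gens ws2)
noncomputable def rels1 : List (Word × Word) := List.append (lev1.rels ws2) (memRels (lev1.gens ws2) ex1 [])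
noncomputable def lev0 : Level := ⟨nat_lit 0,
[⟨[nat_lit 0], [], [],
[⟨nat_lit 0, [], nat_lit 1, [], []⟩,
⟨nat_lit 1, [], nat_lit 1, dw (nat_lit 0x01), dw (nat_lit 0x01)⟩,
⟨nat_lit 1, dw (nat_lit 0x01), nat_lit 0, [], dw (nat_lit 0x02)⟩,
⟨nat_lit 1, dw (nat_lit 0x02), nat_lit 1, dw (nat_lit 0x02), dw (nat_lit 0x02)⟩],
[]⟩],
[⟨dw (nat_lit 0x01), (nat_lit 0xe), [dw (nat_lit 0x01), dw (nat_lit 0x01)], .nil, []⟩]⟩
noncomputable def ex0 : List Word := [[nat_lit 2]]
noncomputable def ws0 : List Word := List.append ex0 (lev0.gens ws1)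
noncomputable def rels0 : List (Word × Word) := List.append (lev0.rels ws1) (memRels (lev0.gens ws1) ex0 [dw (nat_lit 0x0104)])
noncomputable def rels : List (Word × Word) := List.append rels0 (List.append rels1 ([]))
noncomputable def defs : List Word := [dw (nat_lit 0x0101030203)]
noncomputable def relsD : List (Word × Word) := defRels defs 2
noncomputable def relsO : List (Word × Word) := memRels ws0 (lets 2) [dw (nat_lit 0x0105), dw (nat_lit 0x01)]
noncomputable def relsS : List (Word × Word) := []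
noncomputable def allRels : List (Word × Word) := List.append rels (List.append relsD (List.append relsO relsS))
theorem chk1 : lev1.chk 4 nets ws2 1 3 = true := by decide +kernel
theorem chk0 : lev0.chk 4 nets ws1 3 12 = true := by decide +kernel
theorem rc0 : relsChk 4 nets 2 (idArr 4 2 2 0) allRels = true := by decide +kernel
section
variable {Γ Ω : Type*} [Group Γ] [MulAction Γ Ω] (M : PM Γ Ω 4 nets)

theorem all_ok (hs : M.Sep 2 (idArr 4 2 2 0)) : Rels M.gen allRels := (M.rels_of_chk hs rc0)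
theorem sep [FaithfulSMul Γ Ω] : M.Sep 2 (idArr 4 2 2 0) := M.sep_idArr (by decide)
theorem all_ok' [FaithfulSMul Γ Ω] : Rels M.gen allRels := all_ok M (sep M)
theorem rels_of_all {gen : ℕ → Γ} (h : Rels gen allRels) : Rels gen rels := Rels.left h
theorem relsD_of_all {gen : ℕ → Γ} (h : Rels gen allRels) : Rels gen relsD := Rels.left (Rels.right h)
theorem relsO_of_all {gen : ℕ → Γ} (h : Rels gen allRels) : Rels gen relsO := Rels.left (Rels.right (Rels.right h))
theorem relsS_of_all {gen : ℕ → Γ} (h : Rels gen allRels) : Rels gen relsS := Rels.right (Rels.right (Rels.right h))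
theorem card2 (_hR : Rels M.gen rels) : Nat.card (sub M.gen ws2) = 1 := M.card_nil
theorem fixw2 (_hR : Rels M.gen rels) : M.FixTriv ws2 [] := M.fixTriv_nil
theorem r1 (hR : Rels M.gen rels) : Rels M.gen rels1 := (Rels.left (Rels.right hR))
theorem res1 (hR : Rels M.gen rels) : M.LevelRes ws2 lev1 3 := M.level (card2 M hR) chk1 (Rels.left (r1 M hR))
theorem ext1 (hR : Rels M.gen rels) : sub M.gen ws1 = sub M.gen (lev1.gens ws2) := sub_extend (Rels.right (r1 M hR))
theorem card1 (hR : Rels M.gen rels) : Nat.card (sub M.gen ws1) = 3 := by rw [ext1 M hR]; exact (res1 M hR).card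
theorem fix1 (hR : Rels M.gen rels) : M.FixTriv (lev1.gens ws2) [1] := (res1 M hR).fixTriv M (fixw2 M hR)
theorem fixw1 (hR : Rels M.gen rels) : M.FixTriv ws1 [1] := fun g hg => fix1 M hR g (ext1 M hR ▸ hg)
theorem stab1 (hR : Rels M.gen rels) : sub M.gen ws1 ⊓ MulAction.stabilizer Γ (M.dec 1) = sub M.gen ws2 := by rw [ext1 M hR]; exact (res1 M hR).stab
theorem orb1 (hR : Rels M.gen rels) (y : Ω) : y ∈ M.S lev1.orb ↔ ∃ g ∈ sub M.gen ws1, g • M.dec 1 = y := by rw [ext1 M hR]; exact (res1 M hR).orb y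
theorem r0 (hR : Rels M.gen rels) : Rels M.gen rels0 := (Rels.left hR)
theorem res0 (hR : Rels M.gen rels) : M.LevelRes ws1 lev0 12 := M.level (card1 M hR) chk0 (Rels.left (r0 M hR))
theorem ext0 (hR : Rels M.gen rels) : sub M.gen ws0 = sub M.gen (lev0.gens ws1) := sub_extend (Rels.right (r0 M hR))
theorem card0 (hR : Rels M.gen rels) : Nat.card (sub M.gen ws0) = 12 := by rw [ext0 M hR]; exact (res0 M hR).card
theorem fix0 (hR : Rels M.gen rels) : M.FixTriv (lev0.gens ws1) [0, 1] := (res0 M hR).fixTriv M (fixw1 M hR)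
theorem fixw0 (hR : Rels M.gen rels) : M.FixTriv ws0 [0, 1] := fun g hg => fix0 M hR g (ext0 M hR ▸ hg)
theorem stab0 (hR : Rels M.gen rels) : sub M.gen ws0 ⊓ MulAction.stabilizer Γ (M.dec 0) = sub M.gen ws1 := by rw [ext0 M hR]; exact (res0 M hR).stab
theorem orb0 (hR : Rels M.gen rels) (y : Ω) : y ∈ M.S lev0.orb ↔ ∃ g ∈ sub M.gen ws0, g • M.dec 0 = y := by rw [ext0 M hR]; exact (res0 M hR).orb y
theorem orig_eq {gen : ℕ → Γ} (h : Rels gen allRels) : sub gen (lets 2) = sub gen ws0 :=
  sub_lets_eq_of_rels (ds := defs) (by decide +kernel) (relsD_of_all h) (by decide +kernel) (relsO_of_all h)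
theorem gen_mem {gen : ℕ → Γ} (h : Rels gen allRels) {X : Subgroup Γ} (h0 : ∀ l < 2, gen l ∈ X) : sub gen ws0 ≤ X :=
  sub_le_of_wsIn (lo := 0) (gen_mem_of_defRels (ds := defs) (fun l _ hl => h0 l hl) (by decide +kernel) (relsD_of_all h)) (by decide +kernel)

end

/-- the permutation group -/
noncomputable abbrev P := permPM 4 nets (by decide) (by decide) nets_ok
theorem allP : Rels P.gen allRels := all_ok' P
/-- machines of this type -/
abbrev St (X : Type*) [Group X] := Std X 4 nets ws0 12 allRels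
/-- the presentation on the strong generators -/
theorem hom {X : Type*} [Group X] (S : St X) {Δ : Type*} [Group Δ] (y : ℕ → Δ) (hy : Rels y rels) :
    ∃ φ : X →* Δ, φ.range = sub y ws0 ∧ ∀ w ∈ ws0, φ (H14.ev S.M.gen w) = H14.ev y w :=
  S.hom_ws y (card0 _ ((rels_of_all S.rels).prod hy))
/-- the presentation on all letters -/
theorem hom' {X : Type*} [Group X] (S : St X) {Δ : Type*} [Group Δ] (y : ℕ → Δ) (hy : Rels y allRels) :
    ∃ φ : X →* Δ, φ.range = sub y (lets 2) ∧ ∀ l < 3, φ (S.M.gen l) = y l :=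
  S.hom_all y (card0 _ (rels_of_all (S.rels.prod hy))) (orig_eq (S.rels.prod hy)) (orig_eq hy) (ds := defs)
    (by decide +kernel) (relsD_of_all (S.rels.prod hy)) (by decide +kernel)
theorem std_spec : ∃ S : St (alternatingGroup (Fin 4)), S.π = (alternatingGroup (Fin 4)).subtype ∧ ∀ l, (alternatingGroup (Fin 4)).subtype (S.M.gen l) = P.gen l :=
  std_of_hom _ (mem_alt (P.rels_of_chk (sep P) (l := cubes 2) (by decide +kernel))) (ds := defs) (by decide +kernel) (by decide +kernel)
    (relsD_of_all allP) (bd_alt (by decide +kernel)) (card0 P (rels_of_all allP)) allP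
theorem std : Nonempty (St (alternatingGroup (Fin 4))) := let ⟨S, _⟩ := std_spec; ⟨S⟩

end H15.StdAlt4
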