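import Cfsg.Agent.H14.Dw2
import Cfsg.Agent.H15.Std3

/-! Standard machine: `isometryGroup (ZMod 2) (quadFormMinus 1 _ 1 1)` on the non-singular vectors, generated by 4 transvections (A4)
Generated certificate (tools14/pkgen, tools15/std.py) for the permutation group StdGO4m2 of degree 10, order 120, base 0 1 3. -/
set_option autoImplicit false
set_option maxRecDepth 100000

namespace H15.StdGO4m2
open H14

noncomputable def n0 : Net := (.cons (nat_lit 1) (nat_lit 0x100)
(.cons (nat_lit 2) (nat_lit 0x20)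
(.cons (nat_lit 4) (nat_lit 0x2)
(.cons (nat_lit 8) (nat_lit 0x2)
(.cons (nat_lit 4) (nat_lit 0x2)
(.cons (nat_lit 2) (nat_lit 0x30)
(.cons (nat_lit 1) (nat_lit 0x101)
.nil)))))))
theorem n0_ok : Net.ok 10 n0 = true := by decide +kernel
noncomputable def n1 : Net := (.cons (nat_lit 1) (nat_lit 0x50)
(.cons (nat_lit 2) (nat_lit 0x20)
(.cons (nat_lit 4) (nat_lit 0x8)
(.cons (nat_lit 2) (nat_lit 0x31)
(.cons (nat_lit 1) (nat_lit 0x50)
.nil)))))
theorem n1_ok : Net.ok 10 n1 = true := by decide +kernel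
noncomputable def n2 : Net := (.cons (nat_lit 1) (nat_lit 0x14)
(.cons (nat_lit 2) (nat_lit 0x20)
(.cons (nat_lit 4) (nat_lit 0x8)
(.cons (nat_lit 2) (nat_lit 0x21)
(.cons (nat_lit 1) (nat_lit 0x114)
.nil)))))
theorem n2_ok : Net.ok 10 n2 = true := by decide +kernel
noncomputable def n3 : Net := (.cons (nat_lit 1) (nat_lit 0x140)
(.cons (nat_lit 2) (nat_lit 0x20)
(.cons (nat_lit 4) (nat_lit 0xa)
(.cons (nat_lit 8) (nat_lit 0x2)
(.cons (nat_lit 4) (nat_lit 0x2)
(.cons (nat_lit 2) (nat_lit 0x30)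
(.cons (nat_lit 1) (nat_lit 0x140)
.nil)))))))
theorem n3_ok : Net.ok 10 n3 = true := by decide +kernel
noncomputable def n4 : Net := (.cons (nat_lit 1) (nat_lit 0x100)
(.cons (nat_lit 2) (nat_lit 0x22)
(.cons (nat_lit 4) (nat_lit 0x9)
(.cons (nat_lit 8) (nat_lit 0x3)
(.cons (nat_lit 4) (nat_lit 0x1)
(.cons (nat_lit 2) (nat_lit 0x10)
(.cons (nat_lit 1) (nat_lit 0x154)
.nil)))))))
theorem n4_ok : Net.ok 10 n4 = true := by decide +kernel
noncomputable def nets : List Net := [n0, n1, n2, n3, n4]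
theorem nets_ok : netsOk 10 nets = true := List.all_eq_true.2 (fa_cons n0_ok (fa_cons n1_ok (fa_cons n2_ok (fa_cons n3_ok (fa_cons n4_ok (fa_nil))))))
noncomputable def ss : List (Nat × Nat) := [(0, 0)]
noncomputable def ws3 : List Word := []
noncomputable def reach : List Word := [dw (nat_lit 0x01), dw (nat_lit 0x03), dw (nat_lit 0x05), dw (nat_lit 0x07), dw (nat_lit 0x01), dw (nat_lit 0x05)]
noncomputable def lev2 : Level := ⟨nat_lit 3,
[⟨[nat_lit 6], [], [],
[⟨nat_lit 0, [], nat_lit 1, [], []⟩,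
⟨nat_lit 1, [], nat_lit 0, [], []⟩],
[]⟩],
[⟨dw (nat_lit 0x01), (nat_lit 0x20), [], .nil, []⟩]⟩
noncomputable def ex2 : List Word := []
noncomputable def ws2 : List Word := List.append ex2 (lev2.gens ws3)
noncomputable def rels2 : List (Word × Word) := List.append (lev2.rels ws3) (memRels (lev2.gens ws3) ex2 [])
noncomputable def lev1 : Level := ⟨nat_lit 1,
[⟨[nat_lit 8], [], [],
[⟨nat_lit 0, [], nat_lit 1, [], []⟩,
⟨nat_lit 1, [], nat_lit 2, [], []⟩,
⟨nat_lit 2, [], nat_lit 3, [], []⟩,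
⟨nat_lit 3, [], nat_lit 2, dw (nat_lit 0x01), dw (nat_lit 0x01)⟩,
⟨nat_lit 1, dw (nat_lit 0x01), nat_lit 0, [], dw (nat_lit 0x01)⟩,
⟨nat_lit 2, dw (nat_lit 0x01), nat_lit 1, dw (nat_lit 0x01), []⟩],
[]⟩],
[⟨dw (nat_lit 0x01), (nat_lit 0x140), [dw (nat_lit 0x01)], .nil, []⟩,
⟨dw (nat_lit 0x0101), (nat_lit 0x28), [dw (nat_lit 0x01)], .nil, []⟩,
⟨dw (nat_lit 0x010101), (nat_lit 0x4), [], (.cons (nat_lit 3) [dw (nat_lit 0x01)] [dw (nat_lit 0x01)]
.nil), [dw (nat_lit 0x01)]⟩]⟩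
noncomputable def ex1 : List Word := []
noncomputable def ws1 : List Word := List.append ex1 (lev1.gens ws2)
noncomputable def rels1 : List (Word × Word) := List.append (lev1.rels ws2) (memRels (lev1.gens ws2) ex1 [])
noncomputable def lev0 : Level := ⟨nat_lit 0,
[⟨[nat_lit 0], [dw (nat_lit 0x03)], [dw (nat_lit 0x03)],
[⟨nat_lit 0, [], nat_lit 1, [], []⟩,
⟨nat_lit 1, [], nat_lit 0, [], []⟩,
⟨nat_lit 2, [], nat_lit 1, dw (nat_lit 0x01), []⟩,
⟨nat_lit 1, dw (nat_lit 0x01), nat_lit 2, [], []⟩,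
⟨nat_lit 2, dw (nat_lit 0x01), nat_lit 2, dw (nat_lit 0x01), dw (nat_lit 0x020203)⟩,
⟨nat_lit 1, dw (nat_lit 0x0101), nat_lit 1, dw (nat_lit 0x0101), dw (nat_lit 0x020203)⟩,
⟨nat_lit 1, dw (nat_lit 0x010101), nat_lit 1, dw (nat_lit 0x010101), dw (nat_lit 0x010101)⟩],
[dw (nat_lit 0x01)]⟩],
[⟨dw (nat_lit 0x01), (nat_lit 0x16e), [dw (nat_lit 0x01), dw (nat_lit 0x0301), dw (nat_lit 0x0103)], (.cons (nat_lit 3) [dw (nat_lit 0x03)] [dw (nat_lit 0x01)]
.nil), [dw (nat_lit 0x03)]⟩,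
⟨dw (nat_lit 0x010301), (nat_lit 0x290), [dw (nat_lit 0x01), dw (nat_lit 0x01)], (.cons (nat_lit 1) [dw (nat_lit 0x0103), dw (nat_lit 0x0104020301)] [dw (nat_lit 0x01), dw (nat_lit 0x03)]
.nil), [dw (nat_lit 0x0203), dw (nat_lit 0x010103)]⟩]⟩
noncomputable def ex0 : List Word := [[nat_lit 2], [nat_lit 4]]
noncomputable def ws0 : List Word := List.append ex0 (lev0.gens ws1)
noncomputable def rels0 : List (Word × Word) := List.append (lev0.rels ws1) (memRels (lev0.gens ws1) ex0 [dw (nat_lit 0x03030301030303), dw (nat_lit 0x0404010303)])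
noncomputable def rels : List (Word × Word) := List.append rels0 (List.append rels1 (List.append rels2 ([])))
noncomputable def defs : List Word := [dw (nat_lit 0x060808020601030801)]
noncomputable def relsD : List (Word × Word) := defRels defs 4
noncomputable def relsO : List (Word × Word) := memRels ws0 (lets 4) [dw (nat_lit 0x05), dw (nat_lit 0x01), dw (nat_lit 0x03), dw (nat_lit 0x09)]
noncomputable def relsS : List (Word × Word) := []
noncomputable def allRels : List (Word × Word) := List.append rels (List.append relsD (List.append relsO relsS))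
theorem reach_ok : subs (full 10) (orbRun nets (lets 4) reach (bits (List.map Prod.fst ss))) = true := by decide +kernel
theorem chk2 : lev2.chk 10 nets ws3 1 2 = true := by decide +kernel
theorem chk1 : lev1.chk 10 nets ws2 2 12 = true := by decide +kernel
theorem chk0 : lev0.chk 10 nets ws1 12 120 = true := by decide +kernel
theorem rc0 : relsChk 10 nets 4 (idArr 10 4 4 0) allRels = true := by decide +kernel
section
variable {Γ Ω : Type*} [Group Γ] [MulAction Γ Ω] (M : PM Γ Ω 10 nets)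

theorem all_ok (hs : M.Sep 4 (idArr 10 4 4 0)) : Rels M.gen allRels := (M.rels_of_chk hs rc0)
theorem sep [FaithfulSMul Γ Ω] : M.Sep 4 (idArr 10 4 4 0) := M.sep_idArr (by decide)
theorem all_ok' [FaithfulSMul Γ Ω] : Rels M.gen allRels := all_ok M (sep M)
theorem rels_of_all {gen : ℕ → Γ} (h : Rels gen allRels) : Rels gen rels := Rels.left h
theorem relsD_of_all {gen : ℕ → Γ} (h : Rels gen allRels) : Rels gen relsD := Rels.left (Rels.right h)
theorem relsO_of_all {gen : ℕ → Γ} (h : Rels gen allRels) : Rels gen relsO := Rels.left (Rels.right (Rels.right h))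
theorem relsS_of_all {gen : ℕ → Γ} (h : Rels gen allRels) : Rels gen relsS := Rels.right (Rels.right (Rels.right h))
theorem card3 (_hR : Rels M.gen rels) : Nat.card (sub M.gen ws3) = 1 := M.card_nil
theorem fixw3 (_hR : Rels M.gen rels) : M.FixTriv ws3 [] := M.fixTriv_nil
theorem r2 (hR : Rels M.gen rels) : Rels M.gen rels2 := (Rels.left (Rels.right (Rels.right hR)))
theorem res2 (hR : Rels M.gen rels) : M.LevelRes ws3 lev2 2 := M.level (card3 M hR) chk2 (Rels.left (r2 M hR))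
theorem ext2 (hR : Rels M.gen rels) : sub M.gen ws2 = sub M.gen (lev2.gens ws3) := sub_extend (Rels.right (r2 M hR))
theorem card2 (hR : Rels M.gen rels) : Nat.card (sub M.gen ws2) = 2 := by rw [ext2 M hR]; exact (res2 M hR).card
theorem fix2 (hR : Rels M.gen rels) : M.FixTriv (lev2.gens ws3) [3] := (res2 M hR).fixTriv M (fixw3 M hR)
theorem fixw2 (hR : Rels M.gen rels) : M.FixTriv ws2 [3] := fun g hg => fix2 M hR g (ext2 M hR ▸ hg)
theorem stab2 (hR : Rels M.gen rels) : sub M.gen ws2 ⊓ MulAction.stabilizer Γ (M.dec 3) = sub M.gen ws3 := by rw [ext2 M hR]; exact (res2 M hR).stab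
theorem orb2 (hR : Rels M.gen rels) (y : Ω) : y ∈ M.S lev2.orb ↔ ∃ g ∈ sub M.gen ws2, g • M.dec 3 = y := by rw [ext2 M hR]; exact (res2 M hR).orb y
theorem r1 (hR : Rels M.gen rels) : Rels M.gen rels1 := (Rels.left (Rels.right hR))
theorem res1 (hR : Rels M.gen rels) : M.LevelRes ws2 lev1 12 := M.level (card2 M hR) chk1 (Rels.left (r1 M hR))
theorem ext1 (hR : Rels M.gen rels) : sub M.gen ws1 = sub M.gen (lev1.gens ws2) := sub_extend (Rels.right (r1 M hR))
theorem card1 (hR : Rels M.gen rels) : Nat.card (sub M.gen ws1) = 12 := by rw [ext1 M hR]; exact (res1 M hR).card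
theorem fix1 (hR : Rels M.gen rels) : M.FixTriv (lev1.gens ws2) [1, 3] := (res1 M hR).fixTriv M (fixw2 M hR)
theorem fixw1 (hR : Rels M.gen rels) : M.FixTriv ws1 [1, 3] := fun g hg => fix1 M hR g (ext1 M hR ▸ hg)
theorem stab1 (hR : Rels M.gen rels) : sub M.gen ws1 ⊓ MulAction.stabilizer Γ (M.dec 1) = sub M.gen ws2 := by rw [ext1 M hR]; exact (res1 M hR).stab
theorem orb1 (hR : Rels M.gen rels) (y : Ω) : y ∈ M.S lev1.orb ↔ ∃ g ∈ sub M.gen ws1, g • M.dec 1 = y := by rw [ext1 M hR]; exact (res1 M hR).orb y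
theorem r0 (hR : Rels M.gen rels) : Rels M.gen rels0 := (Rels.left hR)
theorem res0 (hR : Rels M.gen rels) : M.LevelRes ws1 lev0 120 := M.level (card1 M hR) chk0 (Rels.left (r0 M hR))
theorem ext0 (hR : Rels M.gen rels) : sub M.gen ws0 = sub M.gen (lev0.gens ws1) := sub_extend (Rels.right (r0 M hR))
theorem card0 (hR : Rels M.gen rels) : Nat.card (sub M.gen ws0) = 120 := by rw [ext0 M hR]; exact (res0 M hR).card
theorem fix0 (hR : Rels M.gen rels) : M.FixTriv (lev0.gens ws1) [0, 1, 3] := (res0 M hR).fixTriv M (fixw1 M hR)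
theorem fixw0 (hR : Rels M.gen rels) : M.FixTriv ws0 [0, 1, 3] := fun g hg => fix0 M hR g (ext0 M hR ▸ hg)
theorem stab0 (hR : Rels M.gen rels) : sub M.gen ws0 ⊓ MulAction.stabilizer Γ (M.dec 0) = sub M.gen ws1 := by rw [ext0 M hR]; exact (res0 M hR).stab
theorem orb0 (hR : Rels M.gen rels) (y : Ω) : y ∈ M.S lev0.orb ↔ ∃ g ∈ sub M.gen ws0, g • M.dec 0 = y := by rw [ext0 M hR]; exact (res0 M hR).orb y
theorem orig_eq {gen : ℕ → Γ} (h : Rels gen allRels) : sub gen (lets 4) = sub gen ws0 :=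
  sub_lets_eq_of_rels (ds := defs) (by decide +kernel) (relsD_of_all h) (by decide +kernel) (relsO_of_all h)
theorem gen_mem {gen : ℕ → Γ} (h : Rels gen allRels) {X : Subgroup Γ} (h0 : ∀ l < 4, gen l ∈ X) : sub gen ws0 ≤ X :=
  sub_le_of_wsIn (lo := 0) (gen_mem_of_defRels (ds := defs) (fun l _ hl => h0 l hl) (by decide +kernel) (relsD_of_all h)) (by decide +kernel)

end

/-- the permutation group -/
noncomputable abbrev P := permPM 10 nets (by decide) (by decide) nets_ok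
theorem allP : Rels P.gen allRels := all_ok' P
/-- machines of this type -/
abbrev St (X : Type*) [Group X] := Std X 10 nets ws0 120 allRels
/-- the presentation on the strong generators -/
theorem hom {X : Type*} [Group X] (S : St X) {Δ : Type*} [Group Δ] (y : ℕ → Δ) (hy : Rels y rels) :
    ∃ φ : X →* Δ, φ.range = sub y ws0 ∧ ∀ w ∈ ws0, φ (H14.ev S.M.gen w) = H14.ev y w :=
  S.hom_ws y (card0 _ ((rels_of_all S.rels).prod hy))
/-- the presentation on all letters -/
theorem hom' {X : Type*} [Group X] (S : St X) {Δ : Type*} [Group Δ] (y : ℕ → Δ) (hy : Rels y allRels) :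
    ∃ φ : X →* Δ, φ.range = sub y (lets 4) ∧ ∀ l < 5, φ (S.M.gen l) = y l :=
  S.hom_all y (card0 _ (rels_of_all (S.rels.prod hy))) (orig_eq (S.rels.prod hy)) (orig_eq hy) (ds := defs)
    (by decide +kernel) (relsD_of_all (S.rels.prod hy)) (by decide +kernel)
/-- the matrices of the first letters (and their inverses) -/
def As : List (ℕ × ℕ) :=
[(nat_lit 0x4821, nat_lit 0x4821),
  (nat_lit 0x8c21, nat_lit 0x8c21),
  (nat_lit 0x8db1, nat_lit 0x8db1),
  (nat_lit 0x8412, nat_lit 0x8412)]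
/-- the vectors -/
def V : ℕ := nat_lit 0x3596daec48
theorem eqv_ok : c2.eqvM (1 + 1 + 2) 10 [1] V As nets 4 = true := by decide +kernel
theorem sep_ok : c2.sepM (1 + 1 + 2) 10 [1] V (ss.map Prod.fst) = true := by decide +kernel
theorem core {F : Type*} [Field F] {a : Ar F} (ha : Ok a c2 2) {ι : Type} [Fintype ι] [DecidableEq ι]
    {e : ι ≃ Fin (1 + 1 + 2)} {T X : Type*} [Group T] [Group X] {ρ : T →* Matrix ι ι F} (h : Mem a e ρ As 4)
    (q : T →* X) (hq : ∀ g, q g = 1 → g = 1 ∨ g ∈ Subgroup.center T ∧ ∀ z ∈ sub P.gen (lets 4), (∀ x ∈ sub P.gen (lets 4), x * z = z * x) → z = 1)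
    (hB : Bd (⊤ : Subgroup X) 120) : ∃ S : St X, Spec S a e ρ q As 4 [1] V (ss.map Prod.fst) :=
  h.std ha (by decide +kernel) eqv_ok reach_ok sep_ok q hq (ds := defs) (by decide +kernel) (by decide +kernel)
    (relsD_of_all allP) hB (orig_eq allP) (card0 P (rels_of_all allP)) allP
theorem std_spec  {a : Ar (ZMod 2)} (ha : Ok a c2 2) :
    ∃ S : St (Cfsg.isometryGroup (ZMod 2) (Cfsg.quadFormMinus 1 (ZMod 2) 1 1)), Spec S a (eMinus 1) (isoM (ZMod 2) (Cfsg.quadFormMinus 1 (ZMod 2) 1 1)) (MonoidHom.id _) As 4 [1] V (ss.map Prod.fst) :=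
  core ha (mem_minus' ha.1 a.v_one a.v_one (L := As) (by decide +kernel)) _ hq_id (bd_go_minus (ZMod.card _) (by decide) (by decide +kernel))
theorem std  : Nonempty (St (Cfsg.isometryGroup (ZMod 2) (Cfsg.quadFormMinus 1 (ZMod 2) 1 1))) :=
  let ⟨_, ha⟩ := ar_2 (F := (ZMod 2)) (ZMod.card _)
  let ⟨S, _⟩ := std_spec  ha
  ⟨S⟩

end H15.StdGO4m2
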