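import Cfsg.Agent.H14.Dw2
import Cfsg.Agent.H15.Std5

/-! Standard machine: `Perm (Fin 10)`, generators the transpositions `(i i+1)`
Generated certificate (tools14/pkgen, tools15/std.py) for the permutation group StdSym10 of degree 10, order 3628800, base 0 1 2 3 4 5 6 7 8. -/
set_option autoImplicit false
set_option maxRecDepth 100000

namespace H15.StdSym10
open H14

noncomputable def n0 : Net := (.cons (nat_lit 1) (nat_lit 0x1)
.nil)
theorem n0_ok : Net.ok 10 n0 = true := by decide +kernel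
noncomputable def n1 : Net := (.cons (nat_lit 1) (nat_lit 0x4)
(.cons (nat_lit 2) (nat_lit 0x2)
(.cons (nat_lit 1) (nat_lit 0x4)
.nil)))
theorem n1_ok : Net.ok 10 n1 = true := by decide +kernel
noncomputable def n2 : Net := (.cons (nat_lit 1) (nat_lit 0x4)
.nil)
theorem n2_ok : Net.ok 10 n2 = true := by decide +kernel
noncomputable def n3 : Net := (.cons (nat_lit 1) (nat_lit 0x10)
(.cons (nat_lit 2) (nat_lit 0x20)
(.cons (nat_lit 4) (nat_lit 0x8)
(.cons (nat_lit 2) (nat_lit 0x20)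
(.cons (nat_lit 1) (nat_lit 0x10)
.nil)))))
theorem n3_ok : Net.ok 10 n3 = true := by decide +kernel
noncomputable def n4 : Net := (.cons (nat_lit 1) (nat_lit 0x10)
.nil)
theorem n4_ok : Net.ok 10 n4 = true := by decide +kernel
noncomputable def n5 : Net := (.cons (nat_lit 1) (nat_lit 0x40)
(.cons (nat_lit 2) (nat_lit 0x20)
(.cons (nat_lit 1) (nat_lit 0x40)
.nil)))
theorem n5_ok : Net.ok 10 n5 = true := by decide +kernel
noncomputable def n6 : Net := (.cons (nat_lit 1) (nat_lit 0x40)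
.nil)
theorem n6_ok : Net.ok 10 n6 = true := by decide +kernel
noncomputable def n7 : Net := (.cons (nat_lit 1) (nat_lit 0x100)
(.cons (nat_lit 2) (nat_lit 0x20)
(.cons (nat_lit 4) (nat_lit 0x2)
(.cons (nat_lit 8) (nat_lit 0x2)
(.cons (nat_lit 4) (nat_lit 0x2)
(.cons (nat_lit 2) (nat_lit 0x20)
(.cons (nat_lit 1) (nat_lit 0x100)
.nil)))))))
theorem n7_ok : Net.ok 10 n7 = true := by decide +kernel
noncomputable def n8 : Net := (.cons (nat_lit 1) (nat_lit 0x100)
.nil)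
theorem n8_ok : Net.ok 10 n8 = true := by decide +kernel
noncomputable def nets : List Net := [n0, n1, n2, n3, n4, n5, n6, n7, n8]
theorem nets_ok : netsOk 10 nets = true := List.all_eq_true.2 (fa_cons n0_ok (fa_cons n1_ok (fa_cons n2_ok (fa_cons n3_ok (fa_cons n4_ok (fa_cons n5_ok (fa_cons n6_ok (fa_cons n7_ok (fa_cons n8_ok (fa_nil))))))))))
noncomputable def ws9 : List Word := []
noncomputable def lev8 : Level := ⟨nat_lit 8,
[⟨[nat_lit 16], [], [],
[⟨nat_lit 0, [], nat_lit 1, [], []⟩,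
⟨nat_lit 1, [], nat_lit 0, [], []⟩],
[]⟩],
[⟨dw (nat_lit 0x01), (nat_lit 0x200), [], .nil, []⟩]⟩
noncomputable def ex8 : List Word := []
noncomputable def ws8 : List Word := List.append ex8 (lev8.gens ws9)
noncomputable def rels8 : List (Word × Word) := List.append (lev8.rels ws9) (memRels (lev8.gens ws9) ex8 [])
noncomputable def lev7 : Level := ⟨nat_lit 7,
[⟨[nat_lit 14], [], [],
[⟨nat_lit 0, [], nat_lit 1, [], []⟩,
⟨nat_lit 1, [], nat_lit 0, [], []⟩,
⟨nat_lit 1, dw (nat_lit 0x01), nat_lit 1, dw (nat_lit 0x01), dw (nat_lit 0x01)⟩],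
[]⟩],
[⟨dw (nat_lit 0x01), (nat_lit 0x300), [dw (nat_lit 0x01)], .nil, []⟩]⟩
noncomputable def ex7 : List Word := []
noncomputable def ws7 : List Word := List.append ex7 (lev7.gens ws8)
noncomputable def rels7 : List (Word × Word) := List.append (lev7.rels ws8) (memRels (lev7.gens ws8) ex7 [])
noncomputable def lev6 : Level := ⟨nat_lit 6,
[⟨[nat_lit 12], [dw (nat_lit 0x03)], [dw (nat_lit 0x03)],
[⟨nat_lit 0, [], nat_lit 1, [], []⟩,
⟨nat_lit 1, [], nat_lit 0, [], []⟩,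
⟨nat_lit 1, dw (nat_lit 0x01), nat_lit 1, dw (nat_lit 0x01), dw (nat_lit 0x01)⟩],
[dw (nat_lit 0x01)]⟩],
[⟨dw (nat_lit 0x01), (nat_lit 0x380), [dw (nat_lit 0x01), dw (nat_lit 0x03)], (.cons (nat_lit 8) [dw (nat_lit 0x03)] [dw (nat_lit 0x01)]
.nil), [dw (nat_lit 0x03)]⟩]⟩
noncomputable def ex6 : List Word := []
noncomputable def ws6 : List Word := List.append ex6 (lev6.gens ws7)
noncomputable def rels6 : List (Word × Word) := List.append (lev6.rels ws7) (memRels (lev6.gens ws7) ex6 [])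
noncomputable def lev5 : Level := ⟨nat_lit 5,
[⟨[nat_lit 10], [dw (nat_lit 0x03), dw (nat_lit 0x05)], [dw (nat_lit 0x03), dw (nat_lit 0x05)],
[⟨nat_lit 0, [], nat_lit 1, [], []⟩,
⟨nat_lit 1, [], nat_lit 0, [], []⟩,
⟨nat_lit 1, dw (nat_lit 0x01), nat_lit 1, dw (nat_lit 0x01), dw (nat_lit 0x01)⟩],
[dw (nat_lit 0x01), dw (nat_lit 0x03)]⟩],
[⟨dw (nat_lit 0x01), (nat_lit 0x3c0), [dw (nat_lit 0x01), dw (nat_lit 0x03), dw (nat_lit 0x05)], (.cons (nat_lit 7) [dw (nat_lit 0x03)] [dw (nat_lit 0x01), dw (nat_lit 0x03)]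
(.cons (nat_lit 8) [dw (nat_lit 0x05)] [dw (nat_lit 0x01)]
.nil)), [dw (nat_lit 0x03), dw (nat_lit 0x05)]⟩]⟩
noncomputable def ex5 : List Word := []
noncomputable def ws5 : List Word := List.append ex5 (lev5.gens ws6)
noncomputable def rels5 : List (Word × Word) := List.append (lev5.rels ws6) (memRels (lev5.gens ws6) ex5 [])
noncomputable def lev4 : Level := ⟨nat_lit 4,
[⟨[nat_lit 8], [dw (nat_lit 0x03), dw (nat_lit 0x05), dw (nat_lit 0x07)], [dw (nat_lit 0x03), dw (nat_lit 0x05), dw (nat_lit 0x07)],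
[⟨nat_lit 0, [], nat_lit 1, [], []⟩,
⟨nat_lit 1, [], nat_lit 0, [], []⟩,
⟨nat_lit 1, dw (nat_lit 0x01), nat_lit 1, dw (nat_lit 0x01), dw (nat_lit 0x01)⟩],
[dw (nat_lit 0x01), dw (nat_lit 0x03), dw (nat_lit 0x05)]⟩],
[⟨dw (nat_lit 0x01), (nat_lit 0x3e0), [dw (nat_lit 0x01), dw (nat_lit 0x03), dw (nat_lit 0x05), dw (nat_lit 0x07)], (.cons (nat_lit 6) [dw (nat_lit 0x03)] [dw (nat_lit 0x01), dw (nat_lit 0x03), dw (nat_lit 0x05)]
(.cons (nat_lit 7) [dw (nat_lit 0x05)] [dw (nat_lit 0x01), dw (nat_lit 0x03)]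
(.cons (nat_lit 8) [dw (nat_lit 0x07)] [dw (nat_lit 0x01)]
.nil))), [dw (nat_lit 0x03), dw (nat_lit 0x05), dw (nat_lit 0x07)]⟩]⟩
noncomputable def ex4 : List Word := []
noncomputable def ws4 : List Word := List.append ex4 (lev4.gens ws5)
noncomputable def rels4 : List (Word × Word) := List.append (lev4.rels ws5) (memRels (lev4.gens ws5) ex4 [])
noncomputable def lev3 : Level := ⟨nat_lit 3,
[⟨[nat_lit 6], [dw (nat_lit 0x03), dw (nat_lit 0x05), dw (nat_lit 0x07), dw (nat_lit 0x09)], [dw (nat_lit 0x03), dw (nat_lit 0x05), dw (nat_lit 0x07), dw (nat_lit 0x09)],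
[⟨nat_lit 0, [], nat_lit 1, [], []⟩,
⟨nat_lit 1, [], nat_lit 0, [], []⟩,
⟨nat_lit 1, dw (nat_lit 0x01), nat_lit 1, dw (nat_lit 0x01), dw (nat_lit 0x01)⟩],
[dw (nat_lit 0x01), dw (nat_lit 0x03), dw (nat_lit 0x05), dw (nat_lit 0x07)]⟩],
[⟨dw (nat_lit 0x01), (nat_lit 0x3f0), [dw (nat_lit 0x01), dw (nat_lit 0x03), dw (nat_lit 0x05), dw (nat_lit 0x07), dw (nat_lit 0x09)], (.cons (nat_lit 5) [dw (nat_lit 0x03)] [dw (nat_lit 0x01), dw (nat_lit 0x03), dw (nat_lit 0x05), dw (nat_lit 0x07)]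
(.cons (nat_lit 6) [dw (nat_lit 0x05)] [dw (nat_lit 0x01), dw (nat_lit 0x03), dw (nat_lit 0x05)]
(.cons (nat_lit 7) [dw (nat_lit 0x07)] [dw (nat_lit 0x01), dw (nat_lit 0x03)]
(.cons (nat_lit 8) [dw (nat_lit 0x09)] [dw (nat_lit 0x01)]
.nil)))), [dw (nat_lit 0x03), dw (nat_lit 0x05), dw (nat_lit 0x07), dw (nat_lit 0x09)]⟩]⟩
noncomputable def ex3 : List Word := []
noncomputable def ws3 : List Word := List.append ex3 (lev3.gens ws4)
noncomputable def rels3 : List (Word × Word) := List.append (lev3.rels ws4) (memRels (lev3.gens ws4) ex3 [])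
noncomputable def lev2 : Level := ⟨nat_lit 2,
[⟨[nat_lit 4], [dw (nat_lit 0x03), dw (nat_lit 0x05), dw (nat_lit 0x07), dw (nat_lit 0x09), dw (nat_lit 0x0b)], [dw (nat_lit 0x03), dw (nat_lit 0x05), dw (nat_lit 0x07), dw (nat_lit 0x09), dw (nat_lit 0x0b)],
[⟨nat_lit 0, [], nat_lit 1, [], []⟩,
⟨nat_lit 1, [], nat_lit 0, [], []⟩,
⟨nat_lit 1, dw (nat_lit 0x01), nat_lit 1, dw (nat_lit 0x01), dw (nat_lit 0x01)⟩],
[dw (nat_lit 0x01), dw (nat_lit 0x03), dw (nat_lit 0x05), dw (nat_lit 0x07), dw (nat_lit 0x09)]⟩],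
[⟨dw (nat_lit 0x01), (nat_lit 0x3f8), [dw (nat_lit 0x01), dw (nat_lit 0x03), dw (nat_lit 0x05), dw (nat_lit 0x07), dw (nat_lit 0x09), dw (nat_lit 0x0b)], (.cons (nat_lit 4) [dw (nat_lit 0x03)] [dw (nat_lit 0x01), dw (nat_lit 0x03), dw (nat_lit 0x05), dw (nat_lit 0x07), dw (nat_lit 0x09)]
(.cons (nat_lit 5) [dw (nat_lit 0x05)] [dw (nat_lit 0x01), dw (nat_lit 0x03), dw (nat_lit 0x05), dw (nat_lit 0x07)]
(.cons (nat_lit 6) [dw (nat_lit 0x07)] [dw (nat_lit 0x01), dw (nat_lit 0x03), dw (nat_lit 0x05)]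
(.cons (nat_lit 7) [dw (nat_lit 0x09)] [dw (nat_lit 0x01), dw (nat_lit 0x03)]
(.cons (nat_lit 8) [dw (nat_lit 0x0b)] [dw (nat_lit 0x01)]
.nil))))), [dw (nat_lit 0x03), dw (nat_lit 0x05), dw (nat_lit 0x07), dw (nat_lit 0x09), dw (nat_lit 0x0b)]⟩]⟩
noncomputable def ex2 : List Word := []
noncomputable def ws2 : List Word := List.append ex2 (lev2.gens ws3)
noncomputable def rels2 : List (Word × Word) := List.append (lev2.rels ws3) (memRels (lev2.gens ws3) ex2 [])
noncomputable def lev1 : Level := ⟨nat_lit 1,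
[⟨[nat_lit 2], [dw (nat_lit 0x03), dw (nat_lit 0x05), dw (nat_lit 0x07), dw (nat_lit 0x09), dw (nat_lit 0x0b), dw (nat_lit 0x0d)], [dw (nat_lit 0x03), dw (nat_lit 0x05), dw (nat_lit 0x07), dw (nat_lit 0x09), dw (nat_lit 0x0b), dw (nat_lit 0x0d)],
[⟨nat_lit 0, [], nat_lit 1, [], []⟩,
⟨nat_lit 1, [], nat_lit 0, [], []⟩,
⟨nat_lit 1, dw (nat_lit 0x01), nat_lit 1, dw (nat_lit 0x01), dw (nat_lit 0x01)⟩],
[dw (nat_lit 0x01), dw (nat_lit 0x03), dw (nat_lit 0x05), dw (nat_lit 0x07), dw (nat_lit 0x09), dw (nat_lit 0x0b)]⟩],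
[⟨dw (nat_lit 0x01), (nat_lit 0x3fc), [dw (nat_lit 0x01), dw (nat_lit 0x03), dw (nat_lit 0x05), dw (nat_lit 0x07), dw (nat_lit 0x09), dw (nat_lit 0x0b), dw (nat_lit 0x0d)], (.cons (nat_lit 3) [dw (nat_lit 0x03)] [dw (nat_lit 0x01), dw (nat_lit 0x03), dw (nat_lit 0x05), dw (nat_lit 0x07), dw (nat_lit 0x09), dw (nat_lit 0x0b)]
(.cons (nat_lit 4) [dw (nat_lit 0x05)] [dw (nat_lit 0x01), dw (nat_lit 0x03), dw (nat_lit 0x05), dw (nat_lit 0x07), dw (nat_lit 0x09)]
(.cons (nat_lit 5) [dw (nat_lit 0x07)] [dw (nat_lit 0x01), dw (nat_lit 0x03), dw (nat_lit 0x05), dw (nat_lit 0x07)]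
(.cons (nat_lit 6) [dw (nat_lit 0x09)] [dw (nat_lit 0x01), dw (nat_lit 0x03), dw (nat_lit 0x05)]
(.cons (nat_lit 7) [dw (nat_lit 0x0b)] [dw (nat_lit 0x01), dw (nat_lit 0x03)]
(.cons (nat_lit 8) [dw (nat_lit 0x0d)] [dw (nat_lit 0x01)]
.nil)))))), [dw (nat_lit 0x03), dw (nat_lit 0x05), dw (nat_lit 0x07), dw (nat_lit 0x09), dw (nat_lit 0x0b), dw (nat_lit 0x0d)]⟩]⟩
noncomputable def ex1 : List Word := []
noncomputable def ws1 : List Word := List.append ex1 (lev1.gens ws2)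
noncomputable def rels1 : List (Word × Word) := List.append (lev1.rels ws2) (memRels (lev1.gens ws2) ex1 [])
noncomputable def lev0 : Level := ⟨nat_lit 0,
[⟨[nat_lit 0], [dw (nat_lit 0x03), dw (nat_lit 0x05), dw (nat_lit 0x07), dw (nat_lit 0x09), dw (nat_lit 0x0b), dw (nat_lit 0x0d), dw (nat_lit 0x0f)], [dw (nat_lit 0x03), dw (nat_lit 0x05), dw (nat_lit 0x07), dw (nat_lit 0x09), dw (nat_lit 0x0b), dw (nat_lit 0x0d), dw (nat_lit 0x0f)],
[⟨nat_lit 0, [], nat_lit 1, [], []⟩,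
⟨nat_lit 1, [], nat_lit 0, [], []⟩,
⟨nat_lit 1, dw (nat_lit 0x01), nat_lit 1, dw (nat_lit 0x01), dw (nat_lit 0x01)⟩],
[dw (nat_lit 0x01), dw (nat_lit 0x03), dw (nat_lit 0x05), dw (nat_lit 0x07), dw (nat_lit 0x09), dw (nat_lit 0x0b), dw (nat_lit 0x0d)]⟩],
[⟨dw (nat_lit 0x01), (nat_lit 0x3fe), [dw (nat_lit 0x01), dw (nat_lit 0x03), dw (nat_lit 0x05), dw (nat_lit 0x07), dw (nat_lit 0x09), dw (nat_lit 0x0b), dw (nat_lit 0x0d), dw (nat_lit 0x0f)
], (.cons (nat_lit 2) [dw (nat_lit 0x03)] [dw (nat_lit 0x01), dw (nat_lit 0x03), dw (nat_lit 0x05), dw (nat_lit 0x07), dw (nat_lit 0x09), dw (nat_lit 0x0b), dw (nat_lit 0x0d)]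
(.cons (nat_lit 3) [dw (nat_lit 0x05)] [dw (nat_lit 0x01), dw (nat_lit 0x03), dw (nat_lit 0x05), dw (nat_lit 0x07), dw (nat_lit 0x09), dw (nat_lit 0x0b)]
(.cons (nat_lit 4) [dw (nat_lit 0x07)] [dw (nat_lit 0x01), dw (nat_lit 0x03), dw (nat_lit 0x05), dw (nat_lit 0x07), dw (nat_lit 0x09)]
(.cons (nat_lit 5) [dw (nat_lit 0x09)] [dw (nat_lit 0x01), dw (nat_lit 0x03), dw (nat_lit 0x05), dw (nat_lit 0x07)]
(.cons (nat_lit 6) [dw (nat_lit 0x0b)] [dw (nat_lit 0x01), dw (nat_lit 0x03), dw (nat_lit 0x05)]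
(.cons (nat_lit 7) [dw (nat_lit 0x0d)] [dw (nat_lit 0x01), dw (nat_lit 0x03)]
(.cons (nat_lit 8) [dw (nat_lit 0x0f)] [dw (nat_lit 0x01)]
.nil))))))), [dw (nat_lit 0x03), dw (nat_lit 0x05), dw (nat_lit 0x07), dw (nat_lit 0x09), dw (nat_lit 0x0b), dw (nat_lit 0x0d), dw (nat_lit 0x0f)]⟩]⟩
noncomputable def ex0 : List Word := []
noncomputable def ws0 : List Word := List.append ex0 (lev0.gens ws1)
noncomputable def rels0 : List (Word × Word) := List.append (lev0.rels ws1) (memRels (lev0.gens ws1) ex0 [])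
noncomputable def rels : List (Word × Word) := List.append rels0 (List.append rels1 (List.append rels2 (List.append rels3 (List.append rels4 (List.append rels5 (List.append rels6 (List.append rels7 (List.append rels8 ([])))))))))
noncomputable def defs : List Word := []
noncomputable def relsD : List (Word × Word) := defRels defs 9
noncomputable def relsO : List (Word × Word) := memRels ws0 (lets 9) [dw (nat_lit 0x01), dw (nat_lit 0x03), dw (nat_lit 0x05), dw (nat_lit 0x07), dw (nat_lit 0x09), dw (nat_lit 0x0b), dw (nat_lit 0x0d), dw (nat_lit 0x0f)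
, dw (nat_lit 0x11)]
noncomputable def relsS : List (Word × Word) := []
noncomputable def allRels : List (Word × Word) := List.append rels (List.append relsD (List.append relsO relsS))
theorem chk8 : lev8.chk 10 nets ws9 1 2 = true := by decide +kernel
theorem chk7 : lev7.chk 10 nets ws8 2 6 = true := by decide +kernel
theorem chk6 : lev6.chk 10 nets ws7 6 24 = true := by decide +kernel
theorem chk5 : lev5.chk 10 nets ws6 24 120 = true := by decide +kernel
theorem chk4 : lev4.chk 10 nets ws5 120 720 = true := by decide +kernel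
theorem chk3 : lev3.chk 10 nets ws4 720 5040 = true := by decide +kernel
theorem chk2 : lev2.chk 10 nets ws3 5040 40320 = true := by decide +kernel
theorem chk1 : lev1.chk 10 nets ws2 40320 362880 = true := by decide +kernel
theorem chk0 : lev0.chk 10 nets ws1 362880 3628800 = true := by decide +kernel
theorem rc0 : relsChk 10 nets 4 (idArr 10 4 4 0) allRels = true := by decide +kernel
section
variable {Γ Ω : Type*} [Group Γ] [MulAction Γ Ω] (M : PM Γ Ω 10 nets)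

theorem all_ok (hs : M.Sep 4 (idArr 10 4 4 0)) : Rels M.gen allRels := (M.rels_of_chk hs rc0)
theorem sep [FaithfulSMul Γ Ω] : M.Sep 4 (idArr 10 4 4 0) := M.sep_idArr (by decide)
theorem all_ok' [FaithfulSMul Γ Ω] : Rels M.gen allRels := all_ok M (sep M)
theorem rels_of_all {gen : ℕ → Γ} (h : Rels gen allRels) : Rels gen rels := Rels.left h
theorem relsD_of_all {gen : ℕ → Γ} (h : Rels gen allRels) : Rels gen relsD := Rels.left (Rels.right h)
theorem relsO_of_all {gen : ℕ → Γ} (h : Rels gen allRels) : Rels gen relsO := Rels.left (Rels.right (Rels.right h))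
theorem relsS_of_all {gen : ℕ → Γ} (h : Rels gen allRels) : Rels gen relsS := Rels.right (Rels.right (Rels.right h))
theorem card9 (_hR : Rels M.gen rels) : Nat.card (sub M.gen ws9) = 1 := M.card_nil
theorem fixw9 (_hR : Rels M.gen rels) : M.FixTriv ws9 [] := M.fixTriv_nil
theorem r8 (hR : Rels M.gen rels) : Rels M.gen rels8 := (Rels.left (Rels.right (Rels.right (Rels.right (Rels.right (Rels.right (Rels.right (Rels.right (Rels.right hR)))))))))
theorem res8 (hR : Rels M.gen rels) : M.LevelRes ws9 lev8 2 := M.level (card9 M hR) chk8 (Rels.left (r8 M hR))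
theorem ext8 (hR : Rels M.gen rels) : sub M.gen ws8 = sub M.gen (lev8.gens ws9) := sub_extend (Rels.right (r8 M hR))
theorem card8 (hR : Rels M.gen rels) : Nat.card (sub M.gen ws8) = 2 := by rw [ext8 M hR]; exact (res8 M hR).card
theorem fix8 (hR : Rels M.gen rels) : M.FixTriv (lev8.gens ws9) [8] := (res8 M hR).fixTriv M (fixw9 M hR)
theorem fixw8 (hR : Rels M.gen rels) : M.FixTriv ws8 [8] := fun g hg => fix8 M hR g (ext8 M hR ▸ hg)
theorem stab8 (hR : Rels M.gen rels) : sub M.gen ws8 ⊓ MulAction.stabilizer Γ (M.dec 8) = sub M.gen ws9 := by rw [ext8 M hR]; exact (res8 M hR).stab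
theorem orb8 (hR : Rels M.gen rels) (y : Ω) : y ∈ M.S lev8.orb ↔ ∃ g ∈ sub M.gen ws8, g • M.dec 8 = y := by rw [ext8 M hR]; exact (res8 M hR).orb y
theorem r7 (hR : Rels M.gen rels) : Rels M.gen rels7 := (Rels.left (Rels.right (Rels.right (Rels.right (Rels.right (Rels.right (Rels.right (Rels.right hR))))))))
theorem res7 (hR : Rels M.gen rels) : M.LevelRes ws8 lev7 6 := M.level (card8 M hR) chk7 (Rels.left (r7 M hR))
theorem ext7 (hR : Rels M.gen rels) : sub M.gen ws7 = sub M.gen (lev7.gens ws8) := sub_extend (Rels.right (r7 M hR))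
theorem card7 (hR : Rels M.gen rels) : Nat.card (sub M.gen ws7) = 6 := by rw [ext7 M hR]; exact (res7 M hR).card
theorem fix7 (hR : Rels M.gen rels) : M.FixTriv (lev7.gens ws8) [7, 8] := (res7 M hR).fixTriv M (fixw8 M hR)
theorem fixw7 (hR : Rels M.gen rels) : M.FixTriv ws7 [7, 8] := fun g hg => fix7 M hR g (ext7 M hR ▸ hg)
theorem stab7 (hR : Rels M.gen rels) : sub M.gen ws7 ⊓ MulAction.stabilizer Γ (M.dec 7) = sub M.gen ws8 := by rw [ext7 M hR]; exact (res7 M hR).stab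
theorem orb7 (hR : Rels M.gen rels) (y : Ω) : y ∈ M.S lev7.orb ↔ ∃ g ∈ sub M.gen ws7, g • M.dec 7 = y := by rw [ext7 M hR]; exact (res7 M hR).orb y
theorem r6 (hR : Rels M.gen rels) : Rels M.gen rels6 := (Rels.left (Rels.right (Rels.right (Rels.right (Rels.right (Rels.right (Rels.right hR)))))))
theorem res6 (hR : Rels M.gen rels) : M.LevelRes ws7 lev6 24 := M.level (card7 M hR) chk6 (Rels.left (r6 M hR))
theorem ext6 (hR : Rels M.gen rels) : sub M.gen ws6 = sub M.gen (lev6.gens ws7) := sub_extend (Rels.right (r6 M hR))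
theorem card6 (hR : Rels M.gen rels) : Nat.card (sub M.gen ws6) = 24 := by rw [ext6 M hR]; exact (res6 M hR).card
theorem fix6 (hR : Rels M.gen rels) : M.FixTriv (lev6.gens ws7) [6, 7, 8] := (res6 M hR).fixTriv M (fixw7 M hR)
theorem fixw6 (hR : Rels M.gen rels) : M.FixTriv ws6 [6, 7, 8] := fun g hg => fix6 M hR g (ext6 M hR ▸ hg)
theorem stab6 (hR : Rels M.gen rels) : sub M.gen ws6 ⊓ MulAction.stabilizer Γ (M.dec 6) = sub M.gen ws7 := by rw [ext6 M hR]; exact (res6 M hR).stab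
theorem orb6 (hR : Rels M.gen rels) (y : Ω) : y ∈ M.S lev6.orb ↔ ∃ g ∈ sub M.gen ws6, g • M.dec 6 = y := by rw [ext6 M hR]; exact (res6 M hR).orb y
theorem r5 (hR : Rels M.gen rels) : Rels M.gen rels5 := (Rels.left (Rels.right (Rels.right (Rels.right (Rels.right (Rels.right hR))))))
theorem res5 (hR : Rels M.gen rels) : M.LevelRes ws6 lev5 120 := M.level (card6 M hR) chk5 (Rels.left (r5 M hR))
theorem ext5 (hR : Rels M.gen rels) : sub M.gen ws5 = sub M.gen (lev5.gens ws6) := sub_extend (Rels.right (r5 M hR))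
theorem card5 (hR : Rels M.gen rels) : Nat.card (sub M.gen ws5) = 120 := by rw [ext5 M hR]; exact (res5 M hR).card
theorem fix5 (hR : Rels M.gen rels) : M.FixTriv (lev5.gens ws6) [5, 6, 7, 8] := (res5 M hR).fixTriv M (fixw6 M hR)
theorem fixw5 (hR : Rels M.gen rels) : M.FixTriv ws5 [5, 6, 7, 8] := fun g hg => fix5 M hR g (ext5 M hR ▸ hg)
theorem stab5 (hR : Rels M.gen rels) : sub M.gen ws5 ⊓ MulAction.stabilizer Γ (M.dec 5) = sub M.gen ws6 := by rw [ext5 M hR]; exact (res5 M hR).stab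
theorem orb5 (hR : Rels M.gen rels) (y : Ω) : y ∈ M.S lev5.orb ↔ ∃ g ∈ sub M.gen ws5, g • M.dec 5 = y := by rw [ext5 M hR]; exact (res5 M hR).orb y
theorem r4 (hR : Rels M.gen rels) : Rels M.gen rels4 := (Rels.left (Rels.right (Rels.right (Rels.right (Rels.right hR)))))
theorem res4 (hR : Rels M.gen rels) : M.LevelRes ws5 lev4 720 := M.level (card5 M hR) chk4 (Rels.left (r4 M hR))
theorem ext4 (hR : Rels M.gen rels) : sub M.gen ws4 = sub M.gen (lev4.gens ws5) := sub_extend (Rels.right (r4 M hR))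
theorem card4 (hR : Rels M.gen rels) : Nat.card (sub M.gen ws4) = 720 := by rw [ext4 M hR]; exact (res4 M hR).card
theorem fix4 (hR : Rels M.gen rels) : M.FixTriv (lev4.gens ws5) [4, 5, 6, 7, 8] := (res4 M hR).fixTriv M (fixw5 M hR)
theorem fixw4 (hR : Rels M.gen rels) : M.FixTriv ws4 [4, 5, 6, 7, 8] := fun g hg => fix4 M hR g (ext4 M hR ▸ hg)
theorem stab4 (hR : Rels M.gen rels) : sub M.gen ws4 ⊓ MulAction.stabilizer Γ (M.dec 4) = sub M.gen ws5 := by rw [ext4 M hR]; exact (res4 M hR).stab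
theorem orb4 (hR : Rels M.gen rels) (y : Ω) : y ∈ M.S lev4.orb ↔ ∃ g ∈ sub M.gen ws4, g • M.dec 4 = y := by rw [ext4 M hR]; exact (res4 M hR).orb y
theorem r3 (hR : Rels M.gen rels) : Rels M.gen rels3 := (Rels.left (Rels.right (Rels.right (Rels.right hR))))
theorem res3 (hR : Rels M.gen rels) : M.LevelRes ws4 lev3 5040 := M.level (card4 M hR) chk3 (Rels.left (r3 M hR))
theorem ext3 (hR : Rels M.gen rels) : sub M.gen ws3 = sub M.gen (lev3.gens ws4) := sub_extend (Rels.right (r3 M hR))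
theorem card3 (hR : Rels M.gen rels) : Nat.card (sub M.gen ws3) = 5040 := by rw [ext3 M hR]; exact (res3 M hR).card
theorem fix3 (hR : Rels M.gen rels) : M.FixTriv (lev3.gens ws4) [3, 4, 5, 6, 7, 8] := (res3 M hR).fixTriv M (fixw4 M hR)
theorem fixw3 (hR : Rels M.gen rels) : M.FixTriv ws3 [3, 4, 5, 6, 7, 8] := fun g hg => fix3 M hR g (ext3 M hR ▸ hg)
theorem stab3 (hR : Rels M.gen rels) : sub M.gen ws3 ⊓ MulAction.stabilizer Γ (M.dec 3) = sub M.gen ws4 := by rw [ext3 M hR]; exact (res3 M hR).stab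
theorem orb3 (hR : Rels M.gen rels) (y : Ω) : y ∈ M.S lev3.orb ↔ ∃ g ∈ sub M.gen ws3, g • M.dec 3 = y := by rw [ext3 M hR]; exact (res3 M hR).orb y
theorem r2 (hR : Rels M.gen rels) : Rels M.gen rels2 := (Rels.left (Rels.right (Rels.right hR)))
theorem res2 (hR : Rels M.gen rels) : M.LevelRes ws3 lev2 40320 := M.level (card3 M hR) chk2 (Rels.left (r2 M hR))
theorem ext2 (hR : Rels M.gen rels) : sub M.gen ws2 = sub M.gen (lev2.gens ws3) := sub_extend (Rels.right (r2 M hR))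
theorem card2 (hR : Rels M.gen rels) : Nat.card (sub M.gen ws2) = 40320 := by rw [ext2 M hR]; exact (res2 M hR).card
theorem fix2 (hR : Rels M.gen rels) : M.FixTriv (lev2.gens ws3) [2, 3, 4, 5, 6, 7, 8] := (res2 M hR).fixTriv M (fixw3 M hR)
theorem fixw2 (hR : Rels M.gen rels) : M.FixTriv ws2 [2, 3, 4, 5, 6, 7, 8] := fun g hg => fix2 M hR g (ext2 M hR ▸ hg)
theorem stab2 (hR : Rels M.gen rels) : sub M.gen ws2 ⊓ MulAction.stabilizer Γ (M.dec 2) = sub M.gen ws3 := by rw [ext2 M hR]; exact (res2 M hR).stab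
theorem orb2 (hR : Rels M.gen rels) (y : Ω) : y ∈ M.S lev2.orb ↔ ∃ g ∈ sub M.gen ws2, g • M.dec 2 = y := by rw [ext2 M hR]; exact (res2 M hR).orb y
theorem r1 (hR : Rels M.gen rels) : Rels M.gen rels1 := (Rels.left (Rels.right hR))
theorem res1 (hR : Rels M.gen rels) : M.LevelRes ws2 lev1 362880 := M.level (card2 M hR) chk1 (Rels.left (r1 M hR))
theorem ext1 (hR : Rels M.gen rels) : sub M.gen ws1 = sub M.gen (lev1.gens ws2) := sub_extend (Rels.right (r1 M hR))
theorem card1 (hR : Rels M.gen rels) : Nat.card (sub M.gen ws1) = 362880 := by rw [ext1 M hR]; exact (res1 M hR).card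
theorem fix1 (hR : Rels M.gen rels) : M.FixTriv (lev1.gens ws2) [1, 2, 3, 4, 5, 6, 7, 8] := (res1 M hR).fixTriv M (fixw2 M hR)
theorem fixw1 (hR : Rels M.gen rels) : M.FixTriv ws1 [1, 2, 3, 4, 5, 6, 7, 8] := fun g hg => fix1 M hR g (ext1 M hR ▸ hg)
theorem stab1 (hR : Rels M.gen rels) : sub M.gen ws1 ⊓ MulAction.stabilizer Γ (M.dec 1) = sub M.gen ws2 := by rw [ext1 M hR]; exact (res1 M hR).stab
theorem orb1 (hR : Rels M.gen rels) (y : Ω) : y ∈ M.S lev1.orb ↔ ∃ g ∈ sub M.gen ws1, g • M.dec 1 = y := by rw [ext1 M hR]; exact (res1 M hR).orb y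
theorem r0 (hR : Rels M.gen rels) : Rels M.gen rels0 := (Rels.left hR)
theorem res0 (hR : Rels M.gen rels) : M.LevelRes ws1 lev0 3628800 := M.level (card1 M hR) chk0 (Rels.left (r0 M hR))
theorem ext0 (hR : Rels M.gen rels) : sub M.gen ws0 = sub M.gen (lev0.gens ws1) := sub_extend (Rels.right (r0 M hR))
theorem card0 (hR : Rels M.gen rels) : Nat.card (sub M.gen ws0) = 3628800 := by rw [ext0 M hR]; exact (res0 M hR).card
theorem fix0 (hR : Rels M.gen rels) : M.FixTriv (lev0.gens ws1) [0, 1, 2, 3, 4, 5, 6, 7, 8] := (res0 M hR).fixTriv M (fixw1 M hR)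
theorem fixw0 (hR : Rels M.gen rels) : M.FixTriv ws0 [0, 1, 2, 3, 4, 5, 6, 7, 8] := fun g hg => fix0 M hR g (ext0 M hR ▸ hg)
theorem stab0 (hR : Rels M.gen rels) : sub M.gen ws0 ⊓ MulAction.stabilizer Γ (M.dec 0) = sub M.gen ws1 := by rw [ext0 M hR]; exact (res0 M hR).stab
theorem orb0 (hR : Rels M.gen rels) (y : Ω) : y ∈ M.S lev0.orb ↔ ∃ g ∈ sub M.gen ws0, g • M.dec 0 = y := by rw [ext0 M hR]; exact (res0 M hR).orb y
theorem orig_eq {gen : ℕ → Γ} (h : Rels gen allRels) : sub gen (lets 9) = sub gen ws0 :=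
  sub_lets_eq_of_rels (ds := defs) (by decide +kernel) (relsD_of_all h) (by decide +kernel) (relsO_of_all h)
theorem gen_mem {gen : ℕ → Γ} (h : Rels gen allRels) {X : Subgroup Γ} (h0 : ∀ l < 9, gen l ∈ X) : sub gen ws0 ≤ X :=
  sub_le_of_wsIn (lo := 0) (gen_mem_of_defRels (ds := defs) (fun l _ hl => h0 l hl) (by decide +kernel) (relsD_of_all h)) (by decide +kernel)

end

/-- the permutation group -/
noncomputable abbrev P := permPM 10 nets (by decide) (by decide) nets_ok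
theorem allP : Rels P.gen allRels := all_ok' P
/-- machines of this type -/
abbrev St (X : Type*) [Group X] := Std X 10 nets ws0 3628800 allRels
/-- the presentation on the strong generators -/
theorem hom {X : Type*} [Group X] (S : St X) {Δ : Type*} [Group Δ] (y : ℕ → Δ) (hy : Rels y rels) :
    ∃ φ : X →* Δ, φ.range = sub y ws0 ∧ ∀ w ∈ ws0, φ (H14.ev S.M.gen w) = H14.ev y w :=
  S.hom_ws y (card0 _ ((rels_of_all S.rels).prod hy))
/-- the presentation on all letters -/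
theorem hom' {X : Type*} [Group X] (S : St X) {Δ : Type*} [Group Δ] (y : ℕ → Δ) (hy : Rels y allRels) :
    ∃ φ : X →* Δ, φ.range = sub y (lets 9) ∧ ∀ l < 9, φ (S.M.gen l) = y l :=
  S.hom_all y (card0 _ (rels_of_all (S.rels.prod hy))) (orig_eq (S.rels.prod hy)) (orig_eq hy) (ds := defs)
    (by decide +kernel) (relsD_of_all (S.rels.prod hy)) (by decide +kernel)
theorem std_spec : ∃ S : St (Equiv.Perm (Fin 10)), S.π = MonoidHom.id _ ∧ ∀ l, MonoidHom.id _ (S.M.gen l) = P.gen l :=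
  std_of_hom _ (fun _ _ => ⟨_, rfl⟩) (ds := defs) (by decide +kernel) (by decide +kernel)
    (relsD_of_all allP) (bd_perm (by decide +kernel)) (card0 P (rels_of_all allP)) allP
theorem std : Nonempty (St (Equiv.Perm (Fin 10))) := let ⟨S, _⟩ := std_spec; ⟨S⟩

end H15.StdSym10
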