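import Cfsg.Agent.H14.Dw2
import Cfsg.Agent.H15.Std5

/-! Standard machine: `Perm (Fin 7)`, generators the transpositions `(i i+1)`
Generated certificate (tools14/pkgen, tools15/std.py) for the permutation group StdSym7 of degree 7, order 5040, base 0 1 2 3 4 5. -/
set_option autoImplicit false
set_option maxRecDepth 100000

namespace H15.StdSym7
open H14

noncomputable def n0 : Net := (.cons (nat_lit 1) (nat_lit 0x1)
.nil)
theorem n0_ok : Net.ok 7 n0 = true := by decide +kernel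
noncomputable def n1 : Net := (.cons (nat_lit 1) (nat_lit 0x4)
(.cons (nat_lit 2) (nat_lit 0x2)
(.cons (nat_lit 1) (nat_lit 0x4)
.nil)))
theorem n1_ok : Net.ok 7 n1 = true := by decide +kernel
noncomputable def n2 : Net := (.cons (nat_lit 1) (nat_lit 0x4)
.nil)
theorem n2_ok : Net.ok 7 n2 = true := by decide +kernel
noncomputable def n3 : Net := (.cons (nat_lit 1) (nat_lit 0x10)
(.cons (nat_lit 2) (nat_lit 0x2)
(.cons (nat_lit 4) (nat_lit 0x2)
(.cons (nat_lit 2) (nat_lit 0x2)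
(.cons (nat_lit 1) (nat_lit 0x10)
.nil)))))
theorem n3_ok : Net.ok 7 n3 = true := by decide +kernel
noncomputable def n4 : Net := (.cons (nat_lit 1) (nat_lit 0x10)
.nil)
theorem n4_ok : Net.ok 7 n4 = true := by decide +kernel
noncomputable def n5 : Net := (.cons (nat_lit 1) (nat_lit 0x10)
(.cons (nat_lit 2) (nat_lit 0x10)
(.cons (nat_lit 1) (nat_lit 0x10)
.nil)))
theorem n5_ok : Net.ok 7 n5 = true := by decide +kernel
noncomputable def nets : List Net := [n0, n1, n2, n3, n4, n5]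
theorem nets_ok : netsOk 7 nets = true := List.all_eq_true.2 (fa_cons n0_ok (fa_cons n1_ok (fa_cons n2_ok (fa_cons n3_ok (fa_cons n4_ok (fa_cons n5_ok (fa_nil)))))))
noncomputable def ws6 : List Word := []
noncomputable def lev5 : Level := ⟨nat_lit 5,
[⟨[nat_lit 10], [], [],
[⟨nat_lit 0, [], nat_lit 1, [], []⟩,
⟨nat_lit 1, [], nat_lit 0, [], []⟩],
[]⟩],
[⟨dw (nat_lit 0x01), (nat_lit 0x40), [], .nil, []⟩]⟩
noncomputable def ex5 : List Word := []
noncomputable def ws5 : List Word := List.append ex5 (lev5.gens ws6)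
noncomputable def rels5 : List (Word × Word) := List.append (lev5.rels ws6) (memRels (lev5.gens ws6) ex5 [])
noncomputable def lev4 : Level := ⟨nat_lit 4,
[⟨[nat_lit 8], [], [],
[⟨nat_lit 0, [], nat_lit 1, [], []⟩,
⟨nat_lit 1, [], nat_lit 0, [], []⟩,
⟨nat_lit 1, dw (nat_lit 0x01), nat_lit 1, dw (nat_lit 0x01), dw (nat_lit 0x01)⟩],
[]⟩],
[⟨dw (nat_lit 0x01), (nat_lit 0x60), [dw (nat_lit 0x01)], .nil, []⟩]⟩
noncomputable def ex4 : List Word := []
noncomputable def ws4 : List Word := List.append ex4 (lev4.gens ws5)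
noncomputable def rels4 : List (Word × Word) := List.append (lev4.rels ws5) (memRels (lev4.gens ws5) ex4 [])
noncomputable def lev3 : Level := ⟨nat_lit 3,
[⟨[nat_lit 6], [dw (nat_lit 0x03)], [dw (nat_lit 0x03)],
[⟨nat_lit 0, [], nat_lit 1, [], []⟩,
⟨nat_lit 1, [], nat_lit 0, [], []⟩,
⟨nat_lit 1, dw (nat_lit 0x01), nat_lit 1, dw (nat_lit 0x01), dw (nat_lit 0x01)⟩],
[dw (nat_lit 0x01)]⟩],
[⟨dw (nat_lit 0x01), (nat_lit 0x70), [dw (nat_lit 0x01), dw (nat_lit 0x03)], (.cons (nat_lit 5) [dw (nat_lit 0x03)] [dw (nat_lit 0x01)]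
.nil), [dw (nat_lit 0x03)]⟩]⟩
noncomputable def ex3 : List Word := []
noncomputable def ws3 : List Word := List.append ex3 (lev3.gens ws4)
noncomputable def rels3 : List (Word × Word) := List.append (lev3.rels ws4) (memRels (lev3.gens ws4) ex3 [])
noncomputable def lev2 : Level := ⟨nat_lit 2,
[⟨[nat_lit 4], [dw (nat_lit 0x03), dw (nat_lit 0x05)], [dw (nat_lit 0x03), dw (nat_lit 0x05)],
[⟨nat_lit 0, [], nat_lit 1, [], []⟩,
⟨nat_lit 1, [], nat_lit 0, [], []⟩,
⟨nat_lit 1, dw (nat_lit 0x01), nat_lit 1, dw (nat_lit 0x01), dw (nat_lit 0x01)⟩],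
[dw (nat_lit 0x01), dw (nat_lit 0x03)]⟩],
[⟨dw (nat_lit 0x01), (nat_lit 0x78), [dw (nat_lit 0x01), dw (nat_lit 0x03), dw (nat_lit 0x05)], (.cons (nat_lit 4) [dw (nat_lit 0x03)] [dw (nat_lit 0x01), dw (nat_lit 0x03)]
(.cons (nat_lit 5) [dw (nat_lit 0x05)] [dw (nat_lit 0x01)]
.nil)), [dw (nat_lit 0x03), dw (nat_lit 0x05)]⟩]⟩
noncomputable def ex2 : List Word := []
noncomputable def ws2 : List Word := List.append ex2 (lev2.gens ws3)
noncomputable def rels2 : List (Word × Word) := List.append (lev2.rels ws3) (memRels (lev2.gens ws3) ex2 [])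
noncomputable def lev1 : Level := ⟨nat_lit 1,
[⟨[nat_lit 2], [dw (nat_lit 0x03), dw (nat_lit 0x05), dw (nat_lit 0x07)], [dw (nat_lit 0x03), dw (nat_lit 0x05), dw (nat_lit 0x07)],
[⟨nat_lit 0, [], nat_lit 1, [], []⟩,
⟨nat_lit 1, [], nat_lit 0, [], []⟩,
⟨nat_lit 1, dw (nat_lit 0x01), nat_lit 1, dw (nat_lit 0x01), dw (nat_lit 0x01)⟩],
[dw (nat_lit 0x01), dw (nat_lit 0x03), dw (nat_lit 0x05)]⟩],
[⟨dw (nat_lit 0x01), (nat_lit 0x7c), [dw (nat_lit 0x01), dw (nat_lit 0x03), dw (nat_lit 0x05), dw (nat_lit 0x07)], (.cons (nat_lit 3) [dw (nat_lit 0x03)] [dw (nat_lit 0x01), dw (nat_lit 0x03), dw (nat_lit 0x05)]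
(.cons (nat_lit 4) [dw (nat_lit 0x05)] [dw (nat_lit 0x01), dw (nat_lit 0x03)]
(.cons (nat_lit 5) [dw (nat_lit 0x07)] [dw (nat_lit 0x01)]
.nil))), [dw (nat_lit 0x03), dw (nat_lit 0x05), dw (nat_lit 0x07)]⟩]⟩
noncomputable def ex1 : List Word := []
noncomputable def ws1 : List Word := List.append ex1 (lev1.gens ws2)
noncomputable def rels1 : List (Word × Word) := List.append (lev1.rels ws2) (memRels (lev1.gens ws2) ex1 [])
noncomputable def lev0 : Level := ⟨nat_lit 0,
[⟨[nat_lit 0], [dw (nat_lit 0x03), dw (nat_lit 0x05), dw (nat_lit 0x07), dw (nat_lit 0x09)], [dw (nat_lit 0x03), dw (nat_lit 0x05), dw (nat_lit 0x07), dw (nat_lit 0x09)],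
[⟨nat_lit 0, [], nat_lit 1, [], []⟩,
⟨nat_lit 1, [], nat_lit 0, [], []⟩,
⟨nat_lit 1, dw (nat_lit 0x01), nat_lit 1, dw (nat_lit 0x01), dw (nat_lit 0x01)⟩],
[dw (nat_lit 0x01), dw (nat_lit 0x03), dw (nat_lit 0x05), dw (nat_lit 0x07)]⟩],
[⟨dw (nat_lit 0x01), (nat_lit 0x7e), [dw (nat_lit 0x01), dw (nat_lit 0x03), dw (nat_lit 0x05), dw (nat_lit 0x07), dw (nat_lit 0x09)], (.cons (nat_lit 2) [dw (nat_lit 0x03)] [dw (nat_lit 0x01), dw (nat_lit 0x03), dw (nat_lit 0x05), dw (nat_lit 0x07)]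
(.cons (nat_lit 3) [dw (nat_lit 0x05)] [dw (nat_lit 0x01), dw (nat_lit 0x03), dw (nat_lit 0x05)]
(.cons (nat_lit 4) [dw (nat_lit 0x07)] [dw (nat_lit 0x01), dw (nat_lit 0x03)]
(.cons (nat_lit 5) [dw (nat_lit 0x09)] [dw (nat_lit 0x01)]
.nil)))), [dw (nat_lit 0x03), dw (nat_lit 0x05), dw (nat_lit 0x07), dw (nat_lit 0x09)]⟩]⟩
noncomputable def ex0 : List Word := []
noncomputable def ws0 : List Word := List.append ex0 (lev0.gens ws1)
noncomputable def rels0 : List (Word × Word) := List.append (lev0.rels ws1) (memRels (lev0.gens ws1) ex0 [])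
noncomputable def rels : List (Word × Word) := List.append rels0 (List.append rels1 (List.append rels2 (List.append rels3 (List.append rels4 (List.append rels5 ([]))))))
noncomputable def defs : List Word := []
noncomputable def relsD : List (Word × Word) := defRels defs 6
noncomputable def relsO : List (Word × Word) := memRels ws0 (lets 6) [dw (nat_lit 0x01), dw (nat_lit 0x03), dw (nat_lit 0x05), dw (nat_lit 0x07), dw (nat_lit 0x09), dw (nat_lit 0x0b)]
noncomputable def relsS : List (Word × Word) := []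
noncomputable def allRels : List (Word × Word) := List.append rels (List.append relsD (List.append relsO relsS))
theorem chk5 : lev5.chk 7 nets ws6 1 2 = true := by decide +kernel
theorem chk4 : lev4.chk 7 nets ws5 2 6 = true := by decide +kernel
theorem chk3 : lev3.chk 7 nets ws4 6 24 = true := by decide +kernel
theorem chk2 : lev2.chk 7 nets ws3 24 120 = true := by decide +kernel
theorem chk1 : lev1.chk 7 nets ws2 120 720 = true := by decide +kernel
theorem chk0 : lev0.chk 7 nets ws1 720 5040 = true := by decide +kernel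
theorem rc0 : relsChk 7 nets 3 (idArr 7 3 3 0) allRels = true := by decide +kernel
section
variable {Γ Ω : Type*} [Group Γ] [MulAction Γ Ω] (M : PM Γ Ω 7 nets)

theorem all_ok (hs : M.Sep 3 (idArr 7 3 3 0)) : Rels M.gen allRels := (M.rels_of_chk hs rc0)
theorem sep [FaithfulSMul Γ Ω] : M.Sep 3 (idArr 7 3 3 0) := M.sep_idArr (by decide)
theorem all_ok' [FaithfulSMul Γ Ω] : Rels M.gen allRels := all_ok M (sep M)
theorem rels_of_all {gen : ℕ → Γ} (h : Rels gen allRels) : Rels gen rels := Rels.left h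
theorem relsD_of_all {gen : ℕ → Γ} (h : Rels gen allRels) : Rels gen relsD := Rels.left (Rels.right h)
theorem relsO_of_all {gen : ℕ → Γ} (h : Rels gen allRels) : Rels gen relsO := Rels.left (Rels.right (Rels.right h))
theorem relsS_of_all {gen : ℕ → Γ} (h : Rels gen allRels) : Rels gen relsS := Rels.right (Rels.right (Rels.right h))
theorem card6 (_hR : Rels M.gen rels) : Nat.card (sub M.gen ws6) = 1 := M.card_nil
theorem fixw6 (_hR : Rels M.gen rels) : M.FixTriv ws6 [] := M.fixTriv_nil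
theorem r5 (hR : Rels M.gen rels) : Rels M.gen rels5 := (Rels.left (Rels.right (Rels.right (Rels.right (Rels.right (Rels.right hR))))))
theorem res5 (hR : Rels M.gen rels) : M.LevelRes ws6 lev5 2 := M.level (card6 M hR) chk5 (Rels.left (r5 M hR))
theorem ext5 (hR : Rels M.gen rels) : sub M.gen ws5 = sub M.gen (lev5.gens ws6) := sub_extend (Rels.right (r5 M hR))
theorem card5 (hR : Rels M.gen rels) : Nat.card (sub M.gen ws5) = 2 := by rw [ext5 M hR]; exact (res5 M hR).card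
theorem fix5 (hR : Rels M.gen rels) : M.FixTriv (lev5.gens ws6) [5] := (res5 M hR).fixTriv M (fixw6 M hR)
theorem fixw5 (hR : Rels M.gen rels) : M.FixTriv ws5 [5] := fun g hg => fix5 M hR g (ext5 M hR ▸ hg)
theorem stab5 (hR : Rels M.gen rels) : sub M.gen ws5 ⊓ MulAction.stabilizer Γ (M.dec 5) = sub M.gen ws6 := by rw [ext5 M hR]; exact (res5 M hR).stab
theorem orb5 (hR : Rels M.gen rels) (y : Ω) : y ∈ M.S lev5.orb ↔ ∃ g ∈ sub M.gen ws5, g • M.dec 5 = y := by rw [ext5 M hR]; exact (res5 M hR).orb y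
theorem r4 (hR : Rels M.gen rels) : Rels M.gen rels4 := (Rels.left (Rels.right (Rels.right (Rels.right (Rels.right hR)))))
theorem res4 (hR : Rels M.gen rels) : M.LevelRes ws5 lev4 6 := M.level (card5 M hR) chk4 (Rels.left (r4 M hR))
theorem ext4 (hR : Rels M.gen rels) : sub M.gen ws4 = sub M.gen (lev4.gens ws5) := sub_extend (Rels.right (r4 M hR))
theorem card4 (hR : Rels M.gen rels) : Nat.card (sub M.gen ws4) = 6 := by rw [ext4 M hR]; exact (res4 M hR).card
theorem fix4 (hR : Rels M.gen rels) : M.FixTriv (lev4.gens ws5) [4, 5] := (res4 M hR).fixTriv M (fixw5 M hR)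
theorem fixw4 (hR : Rels M.gen rels) : M.FixTriv ws4 [4, 5] := fun g hg => fix4 M hR g (ext4 M hR ▸ hg)
theorem stab4 (hR : Rels M.gen rels) : sub M.gen ws4 ⊓ MulAction.stabilizer Γ (M.dec 4) = sub M.gen ws5 := by rw [ext4 M hR]; exact (res4 M hR).stab
theorem orb4 (hR : Rels M.gen rels) (y : Ω) : y ∈ M.S lev4.orb ↔ ∃ g ∈ sub M.gen ws4, g • M.dec 4 = y := by rw [ext4 M hR]; exact (res4 M hR).orb y
theorem r3 (hR : Rels M.gen rels) : Rels M.gen rels3 := (Rels.left (Rels.right (Rels.right (Rels.right hR))))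
theorem res3 (hR : Rels M.gen rels) : M.LevelRes ws4 lev3 24 := M.level (card4 M hR) chk3 (Rels.left (r3 M hR))
theorem ext3 (hR : Rels M.gen rels) : sub M.gen ws3 = sub M.gen (lev3.gens ws4) := sub_extend (Rels.right (r3 M hR))
theorem card3 (hR : Rels M.gen rels) : Nat.card (sub M.gen ws3) = 24 := by rw [ext3 M hR]; exact (res3 M hR).card
theorem fix3 (hR : Rels M.gen rels) : M.FixTriv (lev3.gens ws4) [3, 4, 5] := (res3 M hR).fixTriv M (fixw4 M hR)
theorem fixw3 (hR : Rels M.gen rels) : M.FixTriv ws3 [3, 4, 5] := fun g hg => fix3 M hR g (ext3 M hR ▸ hg)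
theorem stab3 (hR : Rels M.gen rels) : sub M.gen ws3 ⊓ MulAction.stabilizer Γ (M.dec 3) = sub M.gen ws4 := by rw [ext3 M hR]; exact (res3 M hR).stab
theorem orb3 (hR : Rels M.gen rels) (y : Ω) : y ∈ M.S lev3.orb ↔ ∃ g ∈ sub M.gen ws3, g • M.dec 3 = y := by rw [ext3 M hR]; exact (res3 M hR).orb y
theorem r2 (hR : Rels M.gen rels) : Rels M.gen rels2 := (Rels.left (Rels.right (Rels.right hR)))
theorem res2 (hR : Rels M.gen rels) : M.LevelRes ws3 lev2 120 := M.level (card3 M hR) chk2 (Rels.left (r2 M hR))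
theorem ext2 (hR : Rels M.gen rels) : sub M.gen ws2 = sub M.gen (lev2.gens ws3) := sub_extend (Rels.right (r2 M hR))
theorem card2 (hR : Rels M.gen rels) : Nat.card (sub M.gen ws2) = 120 := by rw [ext2 M hR]; exact (res2 M hR).card
theorem fix2 (hR : Rels M.gen rels) : M.FixTriv (lev2.gens ws3) [2, 3, 4, 5] := (res2 M hR).fixTriv M (fixw3 M hR)
theorem fixw2 (hR : Rels M.gen rels) : M.FixTriv ws2 [2, 3, 4, 5] := fun g hg => fix2 M hR g (ext2 M hR ▸ hg)
theorem stab2 (hR : Rels M.gen rels) : sub M.gen ws2 ⊓ MulAction.stabilizer Γ (M.dec 2) = sub M.gen ws3 := by rw [ext2 M hR]; exact (res2 M hR).stab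
theorem orb2 (hR : Rels M.gen rels) (y : Ω) : y ∈ M.S lev2.orb ↔ ∃ g ∈ sub M.gen ws2, g • M.dec 2 = y := by rw [ext2 M hR]; exact (res2 M hR).orb y
theorem r1 (hR : Rels M.gen rels) : Rels M.gen rels1 := (Rels.left (Rels.right hR))
theorem res1 (hR : Rels M.gen rels) : M.LevelRes ws2 lev1 720 := M.level (card2 M hR) chk1 (Rels.left (r1 M hR))
theorem ext1 (hR : Rels M.gen rels) : sub M.gen ws1 = sub M.gen (lev1.gens ws2) := sub_extend (Rels.right (r1 M hR))
theorem card1 (hR : Rels M.gen rels) : Nat.card (sub M.gen ws1) = 720 := by rw [ext1 M hR]; exact (res1 M hR).card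
theorem fix1 (hR : Rels M.gen rels) : M.FixTriv (lev1.gens ws2) [1, 2, 3, 4, 5] := (res1 M hR).fixTriv M (fixw2 M hR)
theorem fixw1 (hR : Rels M.gen rels) : M.FixTriv ws1 [1, 2, 3, 4, 5] := fun g hg => fix1 M hR g (ext1 M hR ▸ hg)
theorem stab1 (hR : Rels M.gen rels) : sub M.gen ws1 ⊓ MulAction.stabilizer Γ (M.dec 1) = sub M.gen ws2 := by rw [ext1 M hR]; exact (res1 M hR).stab
theorem orb1 (hR : Rels M.gen rels) (y : Ω) : y ∈ M.S lev1.orb ↔ ∃ g ∈ sub M.gen ws1, g • M.dec 1 = y := by rw [ext1 M hR]; exact (res1 M hR).orb y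
theorem r0 (hR : Rels M.gen rels) : Rels M.gen rels0 := (Rels.left hR)
theorem res0 (hR : Rels M.gen rels) : M.LevelRes ws1 lev0 5040 := M.level (card1 M hR) chk0 (Rels.left (r0 M hR))
theorem ext0 (hR : Rels M.gen rels) : sub M.gen ws0 = sub M.gen (lev0.gens ws1) := sub_extend (Rels.right (r0 M hR))
theorem card0 (hR : Rels M.gen rels) : Nat.card (sub M.gen ws0) = 5040 := by rw [ext0 M hR]; exact (res0 M hR).card
theorem fix0 (hR : Rels M.gen rels) : M.FixTriv (lev0.gens ws1) [0, 1, 2, 3, 4, 5] := (res0 M hR).fixTriv M (fixw1 M hR)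
theorem fixw0 (hR : Rels M.gen rels) : M.FixTriv ws0 [0, 1, 2, 3, 4, 5] := fun g hg => fix0 M hR g (ext0 M hR ▸ hg)
theorem stab0 (hR : Rels M.gen rels) : sub M.gen ws0 ⊓ MulAction.stabilizer Γ (M.dec 0) = sub M.gen ws1 := by rw [ext0 M hR]; exact (res0 M hR).stab
theorem orb0 (hR : Rels M.gen rels) (y : Ω) : y ∈ M.S lev0.orb ↔ ∃ g ∈ sub M.gen ws0, g • M.dec 0 = y := by rw [ext0 M hR]; exact (res0 M hR).orb y
theorem orig_eq {gen : ℕ → Γ} (h : Rels gen allRels) : sub gen (lets 6) = sub gen ws0 :=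
  sub_lets_eq_of_rels (ds := defs) (by decide +kernel) (relsD_of_all h) (by decide +kernel) (relsO_of_all h)
theorem gen_mem {gen : ℕ → Γ} (h : Rels gen allRels) {X : Subgroup Γ} (h0 : ∀ l < 6, gen l ∈ X) : sub gen ws0 ≤ X :=
  sub_le_of_wsIn (lo := 0) (gen_mem_of_defRels (ds := defs) (fun l _ hl => h0 l hl) (by decide +kernel) (relsD_of_all h)) (by decide +kernel)

end

/-- the permutation group -/
noncomputable abbrev P := permPM 7 nets (by decide) (by decide) nets_ok
theorem allP : Rels P.gen allRels := all_ok' P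
/-- machines of this type -/
abbrev St (X : Type*) [Group X] := Std X 7 nets ws0 5040 allRels
/-- the presentation on the strong generators -/
theorem hom {X : Type*} [Group X] (S : St X) {Δ : Type*} [Group Δ] (y : ℕ → Δ) (hy : Rels y rels) :
    ∃ φ : X →* Δ, φ.range = sub y ws0 ∧ ∀ w ∈ ws0, φ (H14.ev S.M.gen w) = H14.ev y w :=
  S.hom_ws y (card0 _ ((rels_of_all S.rels).prod hy))
/-- the presentation on all letters -/
theorem hom' {X : Type*} [Group X] (S : St X) {Δ : Type*} [Group Δ] (y : ℕ → Δ) (hy : Rels y allRels) :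
    ∃ φ : X →* Δ, φ.range = sub y (lets 6) ∧ ∀ l < 6, φ (S.M.gen l) = y l :=
  S.hom_all y (card0 _ (rels_of_all (S.rels.prod hy))) (orig_eq (S.rels.prod hy)) (orig_eq hy) (ds := defs)
    (by decide +kernel) (relsD_of_all (S.rels.prod hy)) (by decide +kernel)
theorem std_spec : ∃ S : St (Equiv.Perm (Fin 7)), S.π = MonoidHom.id _ ∧ ∀ l, MonoidHom.id _ (S.M.gen l) = P.gen l :=
  std_of_hom _ (fun _ _ => ⟨_, rfl⟩) (ds := defs) (by decide +kernel) (by decide +kernel)
    (relsD_of_all allP) (bd_perm (by decide +kernel)) (card0 P (rels_of_all allP)) allP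
theorem std : Nonempty (St (Equiv.Perm (Fin 7))) := let ⟨S, _⟩ := std_spec; ⟨S⟩

end H15.StdSym7
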