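import Cfsg.Agent.H15.Emb
import Cfsg.Agent.H15.Suz
import Cfsg.Agent.H15.StdG24
import Cfsg.Agent.S1055

/-! The point stabiliser of `Suz` is `G₂(4)` (`H15.Suz.isoG2`). -/

namespace H15
open H14

theorem exists_field4 : ∃ (K : Type) (_ : Field K) (_ : Fintype K), Fintype.card K = 4 :=
  letI := Fintype.ofFinite (GaloisField 2 2)
  ⟨GaloisField 2 2, inferInstance, inferInstance,
    Nat.card_eq_fintype_card.symm.trans (GaloisField.card 2 2 two_ne_zero)⟩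

namespace Suz

theorem base : Base M [0, 56, 90, 3, 7, 1] := base_of_fix M top (SuzP.fixw0 M R')
/-- the letters of `StdG24` -/
def WG : List Word := [[34, 2, 30, 4, 26, 26, 22, 29, 30, 0, 25, 10],
  [31, 33, 4, 2, 29, 25, 33, 10, 32],
  [34, 30, 4, 33, 28, 6, 20, 0],
  [35, 2, 30, 33, 4, 32, 4, 23, 4, 18, 35],
  [34, 33, 30, 26, 33, 22, 4, 24, 19, 28, 23],
  [32, 25, 10, 24, 33],
  [35, 30, 26, 30, 25, 35, 19, 20],
  [35, 32, 4, 32, 27, 25, 23, 8, 6, 32],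
  [2, 30, 33, 4, 2, 32, 24, 22, 30, 8, 6, 32],
  [35, 30, 33, 30, 4, 33, 4, 23, 33, 0, 21, 0],
  [34, 32, 27, 34, 25, 30, 0, 25, 10],
  [35, 2, 32, 32, 28, 35, 23, 25, 4, 20, 27]]
theorem chkG : embZ 1782 64 11 SuzP.nets [0, 56, 90, 3, 7, 1] WG StdG24.allRels [] 0 1 = true := by
  decide +kernel

theorem isoG2 {F : Type*} [Field F] [Fintype F] (hF : Fintype.card F = 4) :
    Nonempty (H ≃* Cfsg.Lie.chevG2.group F) := by
  obtain ⟨S⟩ := StdG24.std hF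
  obtain ⟨h1, h2, h3⟩ := emb_of_chk base chkG
  obtain ⟨φ, h4, h5⟩ := StdG24.hom' S _ h1
  have := (Cfsg.Agent.S1055.result (F := F) (exists_ne_zero_one (by omega))).1
  refine iso_of_range φ (g := S.M.gen 0) (h5 0 (by decide) ▸ h3) (stab ▸ h4 ▸ h2 _) S.ne S.card ?_
  rw [stab, ← stab1]
  exact SuzP.card1 M R'

end Suz
end H15
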