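import Cfsg.Agent.H15.ThR
import Cfsg.Agent.H15.Th3M

/-! The representation `rho3` of degree 248 over the field with 3 elements of the presented group `Cfsg.Spor.Th`. -/

set_option Elab.async false
set_option maxRecDepth 8000

namespace H15.Th3
open Cfsg.Spor Cfsg.Spor.Th H14 H15.Th

theorem hc0 : Th3M.c.rels Th3M.ms (List.take 7 (List.drop 0 (homW ix edges extra []))) = true := by decide +kernel
theorem hc1 : Th3M.c.rels Th3M.ms (List.take 3 (List.drop 7 (homW ix edges extra []))) = true := by decide +kernel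
theorem hc2 : Th3M.c.rels Th3M.ms (List.take 3 (List.drop 10 (homW ix edges extra []))) = true := by decide +kernel
theorem hc3 : Th3M.c.rels Th3M.ms (List.take 1 (List.drop 13 (homW ix edges extra []))) = true := by decide +kernel
theorem hc4 : Th3M.c.rels Th3M.ms (List.take 4 (List.drop 14 (homW ix edges extra []))) = true := by decide +kernel
theorem hc5 : Th3M.c.rels Th3M.ms (List.take 4 (List.drop 18 (homW ix edges extra []))) = true := by decide +kernel
theorem hc6 : Th3M.c.rels Th3M.ms (List.take 4 (List.drop 22 (homW ix edges extra []))) = true := by decide +kernel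
theorem hc7 : Th3M.c.rels Th3M.ms (List.take 4 (List.drop 26 (homW ix edges extra []))) = true := by decide +kernel
theorem hc8 : Th3M.c.rels Th3M.ms (List.take 2 (List.drop 30 (homW ix edges extra []))) = true := by decide +kernel
theorem hc9 : Th3M.c.rels Th3M.ms (List.take 1 (List.drop 32 (homW ix edges extra []))) = true := by decide +kernel
theorem hc10 : Th3M.c.rels Th3M.ms (List.take 1 (List.drop 33 (homW ix edges extra []))) = true := by decide +kernel
theorem hc11 : Th3M.c.rels Th3M.ms (List.take 2 (List.drop 34 (homW ix edges extra []))) = true := by decide +kernel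
theorem hc12 : Th3M.c.rels Th3M.ms (List.take 1 (List.drop 36 (homW ix edges extra []))) = true := by decide +kernel
theorem hc13 : Th3M.c.rels Th3M.ms (List.take 1 (List.drop 37 (homW ix edges extra []))) = true := by decide +kernel
theorem hc14 : Th3M.c.rels Th3M.ms (List.drop 38 (homW ix edges extra [])) = true := by decide +kernel
theorem homR : Rels Th3M.gen (List.drop 0 (homW ix edges extra [])) := (rels_td 0 7 7 rfl (BP.rels_of_chk Th3M.c_ok Th3M.hgen hc0) (rels_td 7 3 10 rfl (BP.rels_of_chk Th3M.c_ok Th3M.hgen hc1) (rels_td 10 3 13 rfl (BP.rels_of_chk Th3M.c_ok Th3M.hgen hc2) (rels_td 13 1 14 rfl (BP.rels_of_chk Th3M.c_ok Th3M.hgen hc3) (rels_td 14 4 18 rfl (BP.rels_of_chk Th3M.c_ok Th3M.hgen hc4) (rels_td 18 4 22 rfl (BP.rels_of_chk Th3M.c_ok Th3M.hgen hc5) (rels_td 22 4 26 rfl (BP.rels_of_chk Th3M.c_ok Th3M.hgen hc6) (rels_td 26 4 30 rfl (BP.rels_of_chk Th3M.c_ok Th3M.hgen hc7) (rels_td 30 2 32 rfl (BP.rels_of_chk Th3M.c_ok Th3M.hgen hc8) (rels_td 32 1 33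 rfl (BP.rels_of_chk Th3M.c_ok Th3M.hgen hc9) (rels_td 33 1 34 rfl (BP.rels_of_chk Th3M.c_ok Th3M.hgen hc10) (rels_td 34 2 36 rfl (BP.rels_of_chk Th3M.c_ok Th3M.hgen hc11) (rels_td 36 1 37 rfl (BP.rels_of_chk Th3M.c_ok Th3M.hgen hc12) (rels_td 37 1 38 rfl (BP.rels_of_chk Th3M.c_ok Th3M.hgen hc13) (BP.rels_of_chk Th3M.c_ok Th3M.hgen hc14)))))))))))))))

theorem ex_rho : ∃ ρ : Cfsg.Spor.Th →* GL (Fin 248) (ZMod 3), ∃ a, ρ a ≠ 1 :=
  let ⟨ρ, h⟩ := exists_hom ix Th3M.gen (fun x hx => by simp [coxNodes, edges] at hx) homR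
  ⟨ρ, _, h (gl.getD 1 .a) ▸ BP.ne_one Th3M.c_ok Th3M.hgen (l := 1) (by decide +kernel)⟩

end H15.Th3
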