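import Cfsg.Agent.H15.Th
import Cfsg.Agent.H15.Th3
import Cfsg.Agent.H15.ThS
import Cfsg.Agent.H15.Cnt5
import Cfsg.Prelude.Def_Sporadic
import Cfsg.Prelude.Def_Exceptional

/-! The Thompson group in `GL(248, 3)` with its subgroups `³D₄(2)` and `³D₄(2):3`. -/

namespace H15.Th3
open H14 L Th

/-- the machine for `³D₄(2)` -/
noncomputable abbrev S := permPM 819 ThS.nets (by decide) (by decide) ThS.nets_ok

theorem eS : Sw S.gen (lts 6) = Sw Q.gen (lts 6) :=
  sub_congr (k := 6) (fun l hl => by interval_cases l <;> rfl) (by decide)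

theorem hS : sub S.gen ThS.lv0.gens = Sw S.gen (lts 6) ∧ Nat.card (Sw S.gen (lts 6)) = 211341312 := by
  have h := eq_of_low (ThS.gen_mem S (fun l hl => gen_mem_lts S.gen hl) (by decide +kernel))
    (eS ▸ bd6 (relL_of_rels (Q.rels_of_idArr (by decide) qd0))) (ThS.low S)
  exact h

theorem simpleS : IsSimpleGroup (Sw S.gen (lts 6)) :=
  hS.1 ▸ ThS.simple S (hS.1 ▸ hS.2) (hS.1 ▸ show H14.ev S.gen [2 * 0] ∈ _ from ev_single S.gen 0 ▸ gen_mem_lts _ (by decide))

theorem main' {Γ : Type*} [Group Γ] {ρ : Cfsg.Spor.Th →* Γ} {a : Cfsg.Spor.Th} (ha : ρ a ≠ 1) :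
    ∃ H : Subgroup Γ, Cfsg.IsTh H ∧ ∃ K : Subgroup H, K.index = 143127000 ∧
    ∃ L : Subgroup H, L ≤ K ∧ Cfsg.Is3D4 L := by
  obtain ⟨-, -, hi, hc, hs⟩ := Th.main
  let e := MonoidHom.ofInjective (inj_of_simple ρ ha)
  have h2 := e.symm.isSimpleGroup
  have h1 : ((Sw S.gen (lts 6)).comap pi').map pi' = Sw S.gen (lts 6) := Subgroup.map_comap_eq_self
    (eS ▸ lts_le fun l _ => ⟨_, pi_gen' l⟩)
  let i := (((Sw S.gen (lts 6)).comap pi').equivMapOfInjective (e.toMonoidHom.comp theta')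
    (e.injective.comp (Function.Injective.of_comp (f := rho) inj'))).symm.trans
      ((((Sw S.gen (lts 6)).comap pi').equivMapOfInjective _ pi_inj').trans (MulEquiv.subgroupCongr h1))
  have := simpleS
  have h3 := i.isSimpleGroup
  refine ⟨ρ.range, ⟨h2, (Nat.card_congr e.toEquiv).symm.trans hc⟩, theta.range.map e.toMonoidHom,
    (Subgroup.index_map_equiv _ e).trans hi, _, ?_, h3, 2, Nat.prime_two.isPrimePow,
    ((Nat.card_congr i.toEquiv).trans hS.2).trans (by norm_num)⟩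
  rw [← Subgroup.map_map, range_theta, ← range_theta']
  exact Subgroup.map_mono (Subgroup.map_le_range _ _)

theorem main : ∃ H : Subgroup (GL (Fin 248) (ZMod 3)), Cfsg.IsTh H ∧ ∃ K : Subgroup H, K.index = 143127000 ∧
    ∃ L : Subgroup H, L ≤ K ∧ Cfsg.Is3D4 L := let ⟨_, _, h⟩ := ex_rho; main' h

end H15.Th3
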