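import Cfsg.Agent.H15.ThQ
import Cfsg.Agent.H14.Obj2
import Cfsg.Agent.H15.ThAM

/-! The centraliser `2^(1+8).A9` of an involution of `Cfsg.Spor.Th`. -/

set_option Elab.async false
set_option maxRecDepth 100000

namespace H15.ThA
open H14 L

/-- the generators of the extraspecial group -/
def Vq : List Word := [[0], [4], [16], [18], [20], [22], [24], [26], [28]]
/-- words for the Carmichael generators -/
def W : List Word := [[34], [36], [38], [40], [42], [44], [46]]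
def nv : List Word := [[0], [14, 10, 8, 4, 2], [10, 14, 6, 2], [8, 10, 6, 4, 2], [14, 6, 4, 2], [14, 8, 6, 2], [16, 10, 8, 4], [14, 10, 8, 6, 4], [14, 16, 12, 6, 2], [0], [8, 12, 6, 4, 2], [10, 12, 8, 2], [8, 10, 4, 2], [10, 12, 8, 6, 4], [12, 10, 6, 4, 2], [10, 8, 6, 2], [16, 12, 6, 4], [14, 16, 10, 8, 2], [0], [8, 12, 6, 4], [14, 12, 8, 6], [14, 12, 6, 4, 2], [14, 8, 6, 4, 2], [14, 16, 4, 2], [14, 12, 8, 4, 2], [12, 8, 6, 2], [16, 12, 10, 8, 6], [0], [14, 12, 10, 6, 2], [14, 10, 6, 4, 2], [14, 12, 4, 2], [14, 16, 10, 6], [12, 6, 4, 2], [12, 14, 10, 6, 4], [12, 10, 4, 2], [16, 12, 8, 4, 2], [0], [14, 10, 8, 4], [10, 12, 8, 4, 2], [16, 12, 10, 2], [12, 14, 10, 8, 2], [14, 12, 8, 4], [8, 14, 4, 2], [12, 14, 10, 4, 2], [14, 16, 8, 6, 4], [0], [12, 14, 10, 6], [16, 8, 6, 2], [14, 12, 10, 8], [12, 14, 10, 2], [14, 10, 8, 6, 2], [10, 12, 8, 6, 2], [12, 14, 8, 6, 2], [14, 16, 12, 10, 4], [0], [14, 16, 12, 8], [12, 14, 8,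 6, 4], [14, 12, 10, 8, 6], [10, 12, 6, 4], [14, 12, 10, 8, 4], [10, 14, 6, 4], [10, 8, 6, 4], [10, 16, 6, 4, 2]]
def cs : List Word := [[], [], [16, 14, 8, 2], [], [16, 10, 8, 6, 4], [10, 16, 8, 6], [], [16, 10, 8, 4, 2], [16, 14, 6, 2], [14, 16, 12, 10], [], [14, 16, 6, 4, 2], [12, 10, 8, 4, 2], [14, 16, 8, 6], [14, 12, 8, 6, 4], [], [14, 16, 12, 10, 6], [14, 16, 10, 2], [16, 12, 10, 8], [14, 16, 6, 4, 2], [12, 6, 4, 2], [], [14, 16, 10, 6, 2], [16, 10, 8, 4, 2], [10, 8, 6, 2], [12, 16, 10, 8, 6], [12, 16, 10, 4, 2], [10, 12, 6, 4, 2]]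
/-- definitions of the new letters -/
def ds : List Word := [[7, 4, 6], [9, 7, 4, 6, 8], [11, 9, 7, 4, 6, 8, 10], [10, 9, 7, 4, 6, 8, 11], [9, 11, 9, 7, 4, 6, 8, 10, 8], [11, 11, 9, 7, 4, 6, 8, 10, 10], [13, 11, 9, 7, 4, 6, 8, 10, 12], [10, 14, 6, 8], [30, 30, 30, 30, 30], [32, 32], [10, 34, 11], [11, 36, 34, 37, 10], [39, 14, 34, 15, 38], [11, 15, 36, 34, 37, 14, 10], [8, 14, 10, 12, 34, 13, 11, 15, 9], [6, 10, 45, 34, 44, 11, 7], [2, 15, 11, 6, 14, 6, 15, 7, 10, 14, 3, 0], [15, 7, 10, 14, 3, 48, 48, 48, 48, 48]]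
noncomputable def rd : List (Word × Word) := defRels ds 8
theorem hd0 : ThAM.c.rels ThAM.ms (List.take 10 (List.drop 0 rd)) = true := by decide +kernel
theorem hd1 : ThAM.c.rels ThAM.ms (List.drop 10 rd) = true := by decide +kernel
theorem relD : Rels ThAM.gen (List.drop 0 rd) := (rels_td 0 10 10 rfl (BP.rels_of_chk ThAM.c_ok ThAM.hgen hd0) (BP.rels_of_chk ThAM.c_ok ThAM.hgen hd1))
theorem ex_y : ∃ y : ℕ → Cfsg.Spor.Th, ∀ l < 8 + ds.length, Th.rho (y l) = ThAM.gen l :=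
  exists_pull Th.rho (fun l hl => ⟨_, (Th.rho_g l hl).trans (ThAM.gen_old l hl).symm⟩) (by decide +kernel) relD
/-- the letters -/
noncomputable def y : ℕ → Cfsg.Spor.Th := ex_y.choose
theorem rho_y : ∀ l < 26, Th.rho (y l) = ThAM.gen l := ex_y.choose_spec
theorem y_old : ∀ l < 8, y l = Th.g l := fun l hl =>
  Th.main.2.1 ((rho_y l (by omega)).trans ((ThAM.gen_old l hl).trans (Th.rho_g l hl).symm))
theorem yD : Rels y rd := Rels.pull Th.main.2.1 rho_y relD (by decide +kernel)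
noncomputable def nr : List (Word × Word) := memRels Vq (conjs Vq W) nv
theorem hnr0 : ThAM.c.rels ThAM.ms (List.take 8 (List.drop 0 nr)) = true := by decide +kernel
theorem hnr1 : ThAM.c.rels ThAM.ms (List.take 8 (List.drop 8 nr)) = true := by decide +kernel
theorem hnr2 : ThAM.c.rels ThAM.ms (List.take 8 (List.drop 16 nr)) = true := by decide +kernel
theorem hnr3 : ThAM.c.rels ThAM.ms (List.take 8 (List.drop 24 nr)) = true := by decide +kernel
theorem hnr4 : ThAM.c.rels ThAM.ms (List.take 8 (List.drop 32 nr)) = true := by decide +kernel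
theorem hnr5 : ThAM.c.rels ThAM.ms (List.take 8 (List.drop 40 nr)) = true := by decide +kernel
theorem hnr6 : ThAM.c.rels ThAM.ms (List.take 8 (List.drop 48 nr)) = true := by decide +kernel
theorem hnr7 : ThAM.c.rels ThAM.ms (List.drop 56 nr) = true := by decide +kernel
theorem ynr : Rels y nr := Rels.pull Th.main.2.1 rho_y (show Rels ThAM.gen (List.drop 0 nr) from (rels_td 0 8 8 rfl (BP.rels_of_chk ThAM.c_ok ThAM.hgen hnr0) (rels_td 8 8 16 rfl (BP.rels_of_chk ThAM.c_ok ThAM.hgen hnr1) (rels_td 16 8 24 rfl (BP.rels_of_chk ThAM.c_ok ThAM.hgen hnr2) (rels_td 24 8 32 rfl (BP.rels_of_chk ThAM.c_ok ThAM.hgen hnr3) (rels_td 32 8 40 rfl (BP.rels_of_chk ThAM.c_ok ThAM.hgen hnr4) (rels_td 40 8 48 rfl (BP.rels_of_chk ThAM.c_ok ThAM.hgen hnr5) (rels_td 48 8 56 rfl (BP.rels_of_chk ThAM.c_ok ThAM.hgen hnr6) (BP.rels_of_chk ThAM.c_ok ThAM.hgen hnr7))))))))) (by decide +kernel)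
noncomputable def qr : List (Word × Word) := qR W Vq ((carm 7).map fun w => (w.reverse, [])) cs
theorem hqr0 : ThAM.c.rels ThAM.ms (List.take 9 (List.drop 0 qr)) = true := by decide +kernel
theorem hqr1 : ThAM.c.rels ThAM.ms (List.take 8 (List.drop 9 qr)) = true := by decide +kernel
theorem hqr2 : ThAM.c.rels ThAM.ms (List.take 7 (List.drop 17 qr)) = true := by decide +kernel
theorem hqr3 : ThAM.c.rels ThAM.ms (List.drop 24 qr) = true := by decide +kernel
theorem yqr : Rels y qr := Rels.pull Th.main.2.1 rho_y (show Rels ThAM.gen (List.drop 0 qr) from (rels_td 0 9 9 rfl (BP.rels_of_chk ThAM.c_ok ThAM.hgen hqr0) (rels_td 9 8 17 rfl (BP.rels_of_chk ThAM.c_ok ThAM.hgen hqr1) (rels_td 17 7 24 rfl (BP.rels_of_chk ThAM.c_ok ThAM.hgen hqr2) (BP.rels_of_chk ThAM.c_ok ThAM.hgen hqr3))))) (by decide +kernel)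
noncomputable def cm : List (Word × Word) := comR W [0]
theorem hcm0 : ThAM.c.rels ThAM.ms (List.drop 0 cm) = true := by decide +kernel
theorem ycm : Rels y cm := Rels.pull Th.main.2.1 rho_y (show Rels ThAM.gen (List.drop 0 cm) from (BP.rels_of_chk ThAM.c_ok ThAM.hgen hcm0)) (by decide +kernel)
noncomputable def ex : List (Word × Word) := [([50] ++ [0], [6] ++ [50]), (powW [34] 3, [])]
theorem hex0 : ThAM.c.rels ThAM.ms (List.drop 0 ex) = true := by decide +kernel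
theorem yex : Rels y ex := Rels.pull Th.main.2.1 rho_y (show Rels ThAM.gen (List.drop 0 ex) from (BP.rels_of_chk ThAM.c_ok ThAM.hgen hex0)) (by decide +kernel)

theorem hv {w : Word} (h : w.all (fun a => Nat.blt a (2 * 7)) = true) : Th.theta (H14.ev Th.M.gen w) = H14.ev y w := by
  rw [H14.map_ev, ev14_congr Th.theta_gen h, ev14_congr (k := 7) (fun l hl => y_old l (by omega)) h]
theorem hQ : (sub Th.M.gen ThQ.V).map Th.theta = sub y Vq := by
  rw [H14.map_sub, sub_congr Th.theta_gen (by decide), ← sub_congr (k := 7) (fun l hl => y_old l (by omega)) (by decide)]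
  exact (sub_eq_of_rels (l := Vq.zip ThQ.V) fun p hp =>
    ((by decide +kernel : ∀ p ∈ Vq.zip ThQ.V, p.1 = p.2 ∨ p ∈ rd) p hp).elim (congrArg _) (yD p)).symm
theorem y1 : H14.ev y [34] ^ 4 ≠ 1 := fun e => BP.ne_of_fld ThAM.c_ok ThAM.hgen (u := [34]) (v := [0, 1]) 0 0
  (by decide +kernel) (by
    have h3 : H14.ev y [34] ^ 3 = 1 := (ev_powW _ _).symm.trans (yex _ (List.mem_cons_of_mem _ List.mem_cons_self))
    rw [pow_succ, h3, one_mul] at e
    rw [← ev14, ← ev14_congr rho_y (by decide), ← H14.map_ev, show [34].reverse = [34] from rfl, e, map_one]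
    exact (RelL.fr (R := []) fa_nil (by decide)).symm)

theorem main : ∃ z : Cfsg.Spor.Th, orderOf z = 2 ∧ ∃ (Q : Subgroup (Subgroup.centralizer ({z} : Set Cfsg.Spor.Th)))
    (_ : Q.Normal), Nat.card Q = 2 ^ 9 ∧ Cfsg.IsExtraspecial 2 Q ∧
      Nonempty ((Subgroup.centralizer ({z} : Set Cfsg.Spor.Th)) ⧸ Q ≃* alternatingGroup (Fin 9)) := by
  have : Finite Cfsg.Spor.Th := Nat.finite_of_card_ne_zero (by rw [Th.main.2.2.2.1]; decide)
  have := alternatingGroup.isSimpleGroup (α := Fin 9) (by simp)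
  let e := (sub Th.M.gen ThQ.V).equivMapOfInjective _ Th.main.1
  have hV : sub y Vq ≤ Subgroup.centralizer {H14.ev y [0]} := by
    rw [← hQ, ← hv (by decide)]
    rintro _ ⟨x, hx, rfl⟩
    rw [Subgroup.mem_centralizer_singleton_iff, ← map_mul, ← map_mul,
      ThQ.zc (ev_mem_sub _ List.mem_cons_self) x hx]
  have hc : IsConj (H14.ev y [0]) (H14.ev y [6]) := isConj_iff.2 ⟨(H14.ev y [50])⁻¹, by
    rw [inv_inv, mul_assoc, ← H14.ev_append, inv_mul_eq_iff_eq_mul, ← H14.ev_append]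
    exact yex _ List.mem_cons_self⟩
  obtain ⟨h1, h2, h3⟩ := two_ext (vs := [([], [0]), ([], [2]), ([], [4]), ([], [6]), ([], [8]), ([], [10]), ([], [12]), ([], [14]), ([], [16]), ([0], []), ([2], []), ([4], []), ([6], []), ([8], []), ([10], []), ([12], [])]) hV (sub_le_cent ycm) (H14.le_normalizer_of ynr) presA9' yqr
    (by decide +kernel) (ev_mem_sub _ List.mem_cons_self) y1 (by
      rw [← hQ]
      rintro _ ⟨x, hx, rfl⟩
      rw [← map_pow, ThQ.p4 x hx, map_one]) (hQ ▸ ThQ.low.trans (Nat.card_congr e.toEquiv).le)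
    (by rw [card_cent_conj hc, ← hv (by decide), cardA9]; exact ThT.cent.trans_lt (by decide))
  have i := Subgroup.subgroupOfEquivOfLe hV
  refine ⟨_, ?_, _, h2, (Nat.card_congr i.toEquiv).trans h1, H21.isExtraspecial_of_equiv Nat.prime_two
    ((e.trans (MulEquiv.subgroupCongr hQ)).trans i.symm) (ThQ.es ?_), h3⟩
  · rw [← hv (by decide), orderOf_injective _ Th.main.1, ThQ.z2]
  · rw [Nat.card_congr e.toEquiv, hQ, h1]; rfl

end H15.ThA
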