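import Cfsg.Agent.H23.Vn1

/-! Piece `PA'` of S4805. -/
set_option autoImplicit false
namespace H15.VnA
open Subgroup Cfsg H5 H8
open scoped ComplexConjugate
universe u

theorem pA : H23.Vn.PA'.{u} := by
  intro G _ _ g χ hg1 hχ hd hg hv
  classical
  have hoff : ∀ x, x ∉ commutator G → χ x = 0 := by
    intro x hx
    obtain ⟨lam, -, hl⟩ := exists_lin_ne_one le_rfl hx
    have e : (χ * fun g => (lam g : ℂ)) = χ := by
      by_contra hne
      have := hv _ (hχ.mul_hom lam) (by rwa [charDegree_mul_hom]) hne
      exact hg (by simpa using this)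
    have := congrFun e x
    by_contra h0
    apply hl
    apply Units.ext
    exact mul_left_cancel₀ h0 (by simpa using this)
  have hgH : g ∈ commutator G := by
    by_contra h
    exact hg (hoff g h)
  have key : ∀ h ∈ commutator G, ¬ IsConj g h → ((commutator G).index : ℂ) + χ g * conj (χ h) = 0 := by
    intro h hh hc
    rw [← sum_irr_mul_conj_of_not_isConj hc]
    have e : ∀ ψ : IrrCharacter G, (ψ : G → ℂ) g * conj ((ψ : G → ℂ) h) =
        (if (ψ : G → ℂ) 1 = 1 then 1 else 0) + if ψ = ⟨χ, hχ⟩ then χ g * conj (χ h) else 0 := by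
      intro ψ
      by_cases h1 : (ψ : G → ℂ) 1 = 1
      · have hk := ψ.2.commutator_le_charKer_iff.2 h1
        have hne : ψ ≠ ⟨χ, hχ⟩ := by
          rintro rfl
          exact hd (hχ.isCharacter.charDegree_eq_one_iff.2 h1)
        rw [if_pos h1, if_neg hne, apply_eq_of_mem_charKer (hk hgH), apply_eq_of_mem_charKer (hk hh), h1]
        simp
      · rw [if_neg h1, zero_add]
        split_ifs with h2
        · rw [h2]
        · rw [hv ψ ψ.2 (fun h3 => h1 (ψ.2.isCharacter.charDegree_eq_one_iff.1 h3))
            (fun h3 => h2 (Subtype.ext h3)), zero_mul]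
    rw [Finset.sum_congr rfl fun ψ _ => e ψ, Finset.sum_add_distrib, Finset.sum_ite_eq', if_pos (Finset.mem_univ _),
      Finset.sum_boole, ← card_linear_irr, Nat.card_eq_fintype_card, Fintype.card_subtype]
  have h1 := key 1 (one_mem _) fun h => hg1 (isConj_one_right.1 h.symm)
  rw [hχ.isCharacter.conj_apply_one] at h1
  have h10 := hχ.apply_one_ne_zero
  have hval : χ g = -(((commutator G).index : ℂ) / χ 1) := by
    field_simp
    linear_combination h1
  have hcj : ∀ h ∈ commutator G, h ∉ charKer χ → IsConj g h := by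
    intro h hh hk
    by_contra hc
    apply hk
    rw [hχ.mem_charKer]
    have h2 := key h hh hc
    have h3 : conj (χ h) = χ 1 := mul_left_cancel₀ hg (by linear_combination h2 - h1)
    rw [← hχ.isCharacter.conj_apply_one, ← h3, Complex.conj_conj]
  have hgk : g ∉ charKer χ := by
    intro hk
    rw [apply_eq_of_mem_charKer hk] at h1
    have h2 : ((((commutator G).index : ℝ) + Complex.normSq (χ 1) : ℝ) : ℂ) = 0 := by
      rw [← h1]
      push_cast
      rw [Complex.normSq_eq_conj_mul_self, hχ.isCharacter.conj_apply_one]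
    have h3 := Complex.ofReal_eq_zero.1 h2
    have h4 := Complex.normSq_pos.2 h10
    have h5 : (0 : ℝ) ≤ (commutator G).index := Nat.cast_nonneg _
    linarith
  refine ⟨hgH, hval, hgk, hcj, hoff, fun ψ hψ hψd hk => ?_⟩
  by_contra hne
  have hz := hv ψ hψ hψd hne
  apply (not_le_ker_iff hψ).2 hψd
  haveI := Fintype.ofFinite (commutator G)
  refine le_ker_of_constituent (S := commutator G) le_rfl hψ isCharacter_one ?_ (by rw [charKer_one]; exact le_top)
  unfold classInner
  refine mul_ne_zero (inv_ne_zero (Nat.cast_ne_zero.2 Nat.card_pos.ne')) ?_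
  have e : ∀ s : commutator G, ψ s * conj (1 : ℂ) = if (s : G) ∈ charKer χ then ψ 1 else 0 := by
    intro s
    rw [map_one, mul_one]
    split_ifs with h
    · exact apply_eq_of_mem_charKer (hk h)
    · rw [← hψ.isClassFunction.eq_of_isConj (hcj s s.2 h), hz]
  rw [Finset.sum_congr rfl fun s _ => e s, ← Finset.sum_filter, Finset.sum_const, nsmul_eq_mul]
  refine mul_ne_zero (Nat.cast_ne_zero.2 (Finset.card_ne_zero.2 ⟨1, ?_⟩)) hψ.apply_one_ne_zero
  simp

end H15.VnA
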